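import Mathlib
import Cfsg.Agent.Lib.Inv2.Group

/-!
# Centralisers of involutions in characteristic two: the counting framework

`|C(t)| · |orbit of a frame| = |frames of normal form of t| · |G|`.
-/

set_option autoImplicit false
set_option linter.unusedSectionVars false
set_option linter.unusedSimpArgs false

namespace Cfsg.Agent.Lib.Inv2.CentCore

open Module Cfsg.Agent.Lib.Inv2.Core Cfsg.Agent.Lib.Inv2.Group

/-- Cosets of the fibre of a map. -/
theorem card_eq_range_mul {H B : Type*} [Group H] [Finite H] (ψ : H → B) (S : Subgroup H)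
    (hψ : ∀ a b, ψ a = ψ b ↔ a⁻¹ * b ∈ S) : Nat.card H = Nat.card (Set.range ψ) * Nat.card S := by
  classical
  rw [Subgroup.card_eq_card_quotient_mul_card_subgroup S]
  congr 1
  let φ : H ⧸ S → Set.range ψ := fun c => Quotient.liftOn' c (fun a => (⟨ψ a, a, rfl⟩ : Set.range ψ)) (by
    intro a b hab
    apply Subtype.ext
    exact (hψ a b).mpr (QuotientGroup.leftRel_apply.mp hab))
  apply Nat.card_eq_of_bijective φ
  constructor
  · intro a b
    induction a using QuotientGroup.induction_on with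
    | H a =>
      induction b using QuotientGroup.induction_on with
      | H b =>
        intro h
        have h2 : ψ a = ψ b := congrArg Subtype.val h
        exact QuotientGroup.eq.mpr ((hψ a b).mp h2)
  · rintro ⟨_, a, rfl⟩
    exact ⟨QuotientGroup.mk a, rfl⟩

variable {F V : Type*} [Field F] [AddCommGroup V] [Module F V]

section action

variable {I : Type*} (G : Subgroup (V ≃ₗ[F] V)) [Finite G] (y₀ : I → V)

/-- The orbit map. -/
def oMap : G → (I → V) := fun g i => (g : V ≃ₗ[F] V) (y₀ i)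

/-- The pointwise stabiliser. -/
def pStab : Subgroup G where
  carrier := {g | ∀ i, (g : V ≃ₗ[F] V) (y₀ i) = y₀ i}
  mul_mem' := by
    intro a b ha hb i
    show (a : V ≃ₗ[F] V) ((b : V ≃ₗ[F] V) (y₀ i)) = y₀ i
    rw [hb i, ha i]
  one_mem' := fun i => rfl
  inv_mem' := by
    intro a ha i
    have h1 : (a : V ≃ₗ[F] V) (((a⁻¹ : G) : V ≃ₗ[F] V) (y₀ i)) = y₀ i := by
      show ((a : V ≃ₗ[F] V) * (a : V ≃ₗ[F] V)⁻¹) (y₀ i) = y₀ i
      simp
    have h2 := ha i
    have h3 : (a : V ≃ₗ[F] V) (((a⁻¹ : G) : V ≃ₗ[F] V) (y₀ i)) = (a : V ≃ₗ[F] V) (y₀ i) := by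
      rw [h2]
      exact h1
    exact (a : V ≃ₗ[F] V).injective h3

theorem oMap_eq_iff (a b : G) : oMap G y₀ a = oMap G y₀ b ↔ a⁻¹ * b ∈ pStab G y₀ := by
  constructor
  · intro h i
    have h1 := congrFun h i
    show ((a : V ≃ₗ[F] V)⁻¹ * (b : V ≃ₗ[F] V)) (y₀ i) = y₀ i
    show (a : V ≃ₗ[F] V)⁻¹ ((b : V ≃ₗ[F] V) (y₀ i)) = y₀ i
    have h2 : (b : V ≃ₗ[F] V) (y₀ i) = (a : V ≃ₗ[F] V) (y₀ i) := h1.symm
    rw [h2]
    show ((a : V ≃ₗ[F] V)⁻¹ * (a : V ≃ₗ[F] V)) (y₀ i) = y₀ i
    simp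
  · intro h
    funext i
    have h1 := h i
    have h2 : (a : V ≃ₗ[F] V)⁻¹ ((b : V ≃ₗ[F] V) (y₀ i)) = y₀ i := h1
    show (a : V ≃ₗ[F] V) (y₀ i) = (b : V ≃ₗ[F] V) (y₀ i)
    have h3 : (a : V ≃ₗ[F] V) ((a : V ≃ₗ[F] V)⁻¹ ((b : V ≃ₗ[F] V) (y₀ i))) = (b : V ≃ₗ[F] V) (y₀ i) := by
      show ((a : V ≃ₗ[F] V) * (a : V ≃ₗ[F] V)⁻¹) ((b : V ≃ₗ[F] V) (y₀ i)) = _
      simp
    rw [h2] at h3
    exact h3

theorem card_G : Nat.card G = Nat.card (Set.range (oMap G y₀)) * Nat.card (pStab G y₀) :=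
  card_eq_range_mul _ _ (oMap_eq_iff G y₀)

/-- The main double count: let `C` be a subgroup containing the pointwise stabiliser. -/
theorem card_sub_mul (C : Subgroup G) (hC : pStab G y₀ ≤ C) :
    Nat.card C * Nat.card (Set.range (oMap G y₀)) =
      Nat.card (Set.range (fun c : C => oMap G y₀ (c : G))) * Nat.card G := by
  have h1 : Nat.card C = Nat.card (Set.range (fun c : C => oMap G y₀ (c : G))) *
      Nat.card ((pStab G y₀).subgroupOf C) := by
    apply card_eq_range_mul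
    intro a b
    rw [oMap_eq_iff, Subgroup.mem_subgroupOf]
    simp
  have h2 : Nat.card ((pStab G y₀).subgroupOf C) = Nat.card (pStab G y₀) :=
    Nat.card_congr (Subgroup.subgroupOfEquivOfLe hC).toEquiv
  rw [h1, h2, card_G G y₀]
  ring

end action

section main

variable {I : Type*} [Fintype I] [DecidableEq I] {f : LinearMap.BilinForm F V} {τ : I → I}

/-- Families in normal form. -/
def Yset (f : LinearMap.BilinForm F V) (τ : I → I) (N : V →ₗ[F] V) : Set (I → V) :=
  {y | LinearIndependent F y ∧ (∀ i j, f (y i) (y j) = 0) ∧ ∀ v, normN f τ y v = N v}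

/-- Dual families for a form. -/
def hypB {U : Type*} [AddCommGroup U] [Module F U] (g : LinearMap.BilinForm F U) (τ : I → I) : Set (I → U) :=
  {b | ∀ i j, g (b i) (b j) = if i = τ j then 1 else 0}

variable (G : Subgroup (V ≃ₗ[F] V)) [Finite G]

theorem comm_of_normN (hG : ∀ g ∈ G, ∀ a b, f (g a) (g b) = f a b) (t : G) {y₀ : I → V}
    (hN : ∀ v, normN f τ y₀ v = nOf (t : V ≃ₗ[F] V) v) (g : G)
    (h : ∀ v, normN f τ (oMap G y₀ g) v = nOf (t : V ≃ₗ[F] V) v) :
    g ∈ Subgroup.centralizer ({t} : Set G) := by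
  rw [Subgroup.mem_centralizer_singleton_iff]
  apply Subtype.ext
  ext v
  show (g : V ≃ₗ[F] V) ((t : V ≃ₗ[F] V) v) = (t : V ≃ₗ[F] V) ((g : V ≃ₗ[F] V) v)
  have h1 := normN_semiconj (f := f) (τ := τ) (y := y₀) (y' := oMap G y₀ g) (g : V ≃ₗ[F] V) (hG g g.2)
    (fun i => rfl) v
  rw [hN, h] at h1
  simp only [nOf_apply, map_sub] at h1
  exact sub_right_injective h1

theorem range_cent (hG : ∀ g ∈ G, ∀ a b, f (g a) (g b) = f a b) (t : G) {y₀ : I → V}
    (hy₀ : LinearIndependent F y₀) (hT : ∀ i j, f (y₀ i) (y₀ j) = 0)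
    (hN : ∀ v, normN f τ y₀ v = nOf (t : V ≃ₗ[F] V) v)
    (hW : ∀ y ∈ Yset f τ (nOf (t : V ≃ₗ[F] V)), y ∈ Set.range (oMap G y₀)) :
    Set.range (fun c : Subgroup.centralizer ({t} : Set G) => oMap G y₀ (c : G)) =
      Yset f τ (nOf (t : V ≃ₗ[F] V)) := by
  ext y
  constructor
  · rintro ⟨c, rfl⟩
    have hc : (c : G) * t = t * c := Subgroup.mem_centralizer_singleton_iff.mp c.2
    have hc' : ∀ v, (c : V ≃ₗ[F] V) ((t : V ≃ₗ[F] V) v) = (t : V ≃ₗ[F] V) ((c : V ≃ₗ[F] V) v) := by
      intro v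
      have := congrArg (fun a : G => (a : V ≃ₗ[F] V) v) hc
      exact this
    refine ⟨?_, ?_, ?_⟩
    · have : LinearMap.ker ((c : V ≃ₗ[F] V) : V →ₗ[F] V) = ⊥ := LinearEquiv.ker _
      exact hy₀.map' _ this
    · intro i j
      show f ((c : V ≃ₗ[F] V) (y₀ i)) ((c : V ≃ₗ[F] V) (y₀ j)) = 0
      rw [hG _ (c : G).2, hT]
    · intro v
      have h1 := normN_semiconj (f := f) (τ := τ) (y := y₀) (y' := oMap G y₀ (c : G)) (c : V ≃ₗ[F] V) (hG c (c : G).2)
        (fun i => rfl) ((c : V ≃ₗ[F] V).symm v)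
      rw [LinearEquiv.apply_symm_apply] at h1
      show normN f τ (oMap G y₀ (c : G)) v = _
      rw [← h1, hN]
      simp only [nOf_apply, map_sub, hc', LinearEquiv.apply_symm_apply]
  · intro hy
    obtain ⟨g, rfl⟩ := hW y hy
    exact ⟨⟨g, comm_of_normN G hG t hN g hy.2.2⟩, rfl⟩

/-- The main count of the fibration. -/
theorem card_main (hG : ∀ g ∈ G, ∀ a b, f (g a) (g b) = f a b) (t : G) {y₀ : I → V}
    (hy₀ : LinearIndependent F y₀) (hT : ∀ i j, f (y₀ i) (y₀ j) = 0)
    (hN : ∀ v, normN f τ y₀ v = nOf (t : V ≃ₗ[F] V) v)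
    (hW : ∀ y ∈ Yset f τ (nOf (t : V ≃ₗ[F] V)), y ∈ Set.range (oMap G y₀)) :
    Nat.card (Subgroup.centralizer ({t} : Set G)) * Nat.card (Set.range (oMap G y₀)) =
      Nat.card (Yset f τ (nOf (t : V ≃ₗ[F] V))) * Nat.card G := by
  have hle : pStab G y₀ ≤ Subgroup.centralizer ({t} : Set G) := by
    intro g hg
    apply comm_of_normN G hG t hN g
    intro v
    rw [← hN]
    congr 2
    funext i
    exact hg i
  have := card_sub_mul G y₀ _ hle
  rw [range_cent G hG t hy₀ hT hN hW] at this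
  exact this

variable [FiniteDimensional F V]

/-- Normal-form families are dual families on a complement of the kernel. -/
theorem card_Yset [Nonempty I] (hS : ∀ a b, f a b = f b a) (hN : ∀ x, (∀ y, f x y = 0) → x = 0)
    (hτ : Function.Involutive τ) {N : V →ₗ[F] V} (hadj : ∀ x y, f (N x) y = f x (N y)) (hsq : ∀ x, N (N x) = 0)
    {U : Submodule F V} (hU : IsCompl U (LinearMap.ker N)) (hcard : Fintype.card I = finrank F U) :
    Nat.card (Yset f τ N) = Nat.card (hypB (gU f N U) τ : Set (I → U)) := by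
  symm
  have hinj : ∀ a b : U, N (a : V) = N (b : V) → a = b := by
    intro a b hab
    have h0 : (a : V) - b ∈ LinearMap.ker N := by rw [LinearMap.mem_ker, map_sub, hab, sub_self]
    have h1 : (a : V) - b ∈ U ⊓ LinearMap.ker N := ⟨U.sub_mem a.2 b.2, h0⟩
    rw [hU.inf_eq_bot, Submodule.mem_bot] at h1
    exact Subtype.ext (sub_eq_zero.mp h1)
  have hmem : ∀ b : (hypB (gU f N U) τ : Set (I → U)), (fun i => N (b.1 i : V)) ∈ Yset f τ N := by
    rintro ⟨b, hb⟩
    have hb' : ∀ i j, gU f N U (b i) (b j) = if i = τ j then 1 else 0 := hb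
    have hLI : LinearIndependent F b := by
      rw [Fintype.linearIndependent_iff]
      intro c hc k
      have h1 : gU f N U (b (τ k)) (∑ i, c i • b i) = 0 := by rw [hc, map_zero]
      rw [map_sum] at h1
      simp only [map_smul, smul_eq_mul, hb'] at h1
      simp only [hτ.injective.eq_iff] at h1
      simpa using h1
    let bb : Module.Basis I F U := basisOfLinearIndependentOfCardEqFinrank hLI hcard
    have hbb : ∀ i, bb i = b i := fun i => by
      simp [bb, coe_basisOfLinearIndependentOfCardEqFinrank]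
    have := family_of_basis hU hadj hsq hτ bb (by
      intro i j
      rw [hbb, hbb]
      exact hb' i j)
    simp only [hbb] at this
    exact ⟨this.1, this.2.1, fun v => (this.2.2 v).symm⟩
  let φ : (hypB (gU f N U) τ : Set (I → U)) → Yset f τ N := fun b => ⟨_, hmem b⟩
  apply Nat.card_eq_of_bijective φ
  constructor
  · rintro ⟨a, ha⟩ ⟨b, hb⟩ hab
    apply Subtype.ext
    funext i
    exact hinj _ _ (congrFun (congrArg Subtype.val hab) i)
  · rintro ⟨y, hy, hyT, hyN⟩
    have hrange : ∀ i, ∃ u : U, N (u : V) = y i := by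
      intro i
      have h1 : y i ∈ LinearMap.range (normN f τ y) := by
        rw [range_normN hS hN hτ hy]
        exact Submodule.subset_span ⟨i, rfl⟩
      obtain ⟨v, hv⟩ := h1
      have hz : v ∈ U ⊔ LinearMap.ker N := by rw [hU.sup_eq_top]; trivial
      obtain ⟨u, hu, k, hk, rfl⟩ := Submodule.mem_sup.mp hz
      rw [LinearMap.mem_ker] at hk
      refine ⟨⟨u, hu⟩, ?_⟩
      rw [hyN, map_add, hk, add_zero] at hv
      exact hv
    choose b hb using hrange
    have hcoef : ∀ i k, f (b i : V) (y (τ k)) = if k = i then 1 else 0 := by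
      intro i k
      have h1 := hyN (b i : V)
      rw [hb, normN_apply] at h1
      have h2 : ∑ k, (f (b i : V) (y (τ k)) - if k = i then 1 else 0) • y k = 0 := by
        simp only [sub_smul, Finset.sum_sub_distrib, h1]
        simp
      have h3 := (Fintype.linearIndependent_iff.mp hy) _ h2 k
      exact sub_eq_zero.mp h3
    refine ⟨⟨b, ?_⟩, ?_⟩
    · intro i j
      rw [gU_apply, hb]
      have := hcoef i (τ j)
      rw [hτ j] at this
      rw [this]
      simp [eq_comm]
    · apply Subtype.ext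
      funext i
      exact hb i

end main

end Cfsg.Agent.Lib.Inv2.CentCore
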