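import Mathlib
import Cfsg.Agent.Lib.Inv2.CentCore
import Cfsg.Agent.S2622
import Cfsg.Agent.Lib.Classical.AltCount

/-!
# Counting dual bases of symmetric forms in characteristic two

`spnum q r` is the order of `Sp_{2r}(q)`, `onum q n` the number of orthonormal bases of a non-degenerate
symmetric non-alternating form in dimension `n` over the field of `q` elements, `q` even.
-/

set_option autoImplicit false
set_option linter.unusedSectionVars false
set_option linter.unusedSimpArgs false

namespace Cfsg.Agent.Lib.Inv2.FormCount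

open Module Cfsg.Agent.Lib.Inv2.CentCore

universe u v

/-- The order of `Sp_{2r}(q)`. -/
def spnum (q r : ℕ) : ℕ := q ^ (r ^ 2) * ∏ i ∈ Finset.range r, (q ^ (2 * (i + 1)) - 1)

/-- The number of orthonormal bases. -/
def onum (q : ℕ) : ℕ → ℕ
  | 0 => 1
  | 1 => 1
  | (n + 2) => if Even n then q ^ (n + 1) * onum q (n + 1) else (q ^ (n + 1) - 1) * onum q (n + 1)

theorem spnum_succ (q r : ℕ) (hq : 1 ≤ q) : spnum q (r + 1) = (q ^ (2 * r + 2) - 1) * (q ^ (2 * r + 1) * spnum q r) := by
  rw [spnum, spnum, Finset.prod_range_succ]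
  have : (r + 1) ^ 2 = r ^ 2 + (2 * r + 1) := by ring
  rw [this, pow_add]
  have h2 : 2 * (r + 1) = 2 * r + 2 := by ring
  rw [h2]
  ring

theorem onum_odd (q r : ℕ) (hq : 1 ≤ q) : onum q (2 * r + 1) = spnum q r := by
  induction r with
  | zero => simp [onum, spnum]
  | succ r ih =>
    have h1 : 2 * (r + 1) + 1 = (2 * r + 1) + 2 := by ring
    have h2 : 2 * r + 1 + 1 = 2 * r + 2 := by ring
    rw [h1, onum, if_neg (by simp [Nat.even_add_one]), h2, onum, if_pos (by simp), ih, spnum_succ q r hq]

theorem onum_even (q r : ℕ) : onum q (2 * r + 2) = q ^ (2 * r + 1) * onum q (2 * r + 1) := by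
  rw [onum, if_pos (by simp)]

variable {F : Type u} [Field F] [Finite F] [CharP F 2]

section affine

variable {U : Type v} [AddCommGroup U] [Module F U] [FiniteDimensional F U]

/-- Fibres of a non-zero functional. -/
theorem card_fibre {q n : ℕ} (hq : Nat.card F = q) (hU : finrank F U = n + 1) (φ : U →ₗ[F] F) {x₀ : U} (hx₀ : φ x₀ = 1) :
    Nat.card {x : U // φ x = 1} = q ^ n ∧ finrank F (LinearMap.ker φ) = n := by
  have hsurj : Function.Surjective φ := by
    intro s
    exact ⟨s • x₀, by simp [hx₀]⟩
  have h1 : finrank F (LinearMap.ker φ) = n := by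
    have h2 := LinearMap.finrank_range_add_finrank_ker φ
    rw [LinearMap.range_eq_top.2 hsurj, finrank_top, finrank_self] at h2
    omega
  refine ⟨?_, h1⟩
  let e : LinearMap.ker φ ≃ {x : U // φ x = 1} :=
    { toFun := fun z => ⟨z.1 + x₀, by rw [map_add, hx₀, LinearMap.mem_ker.1 z.2, zero_add]⟩
      invFun := fun y => ⟨y.1 - x₀, by rw [LinearMap.mem_ker, map_sub, y.2, hx₀, sub_self]⟩
      left_inv := fun z => by simp
      right_inv := fun y => by simp }
  rw [← Nat.card_congr e, Module.natCard_eq_pow_finrank (K := F), h1, hq]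

end affine

section onb

variable {U : Type v} [AddCommGroup U] [Module F U] [FiniteDimensional F U]

/-- The restriction of a form to `x^⊥`. -/
noncomputable def perpSub (g : LinearMap.BilinForm F U) (x : U) : Submodule F U := LinearMap.ker (g x)

theorem mem_perpSub {g : LinearMap.BilinForm F U} {x z : U} : z ∈ perpSub g x ↔ g x z = 0 := LinearMap.mem_ker

theorem sub_mem_perp {g : LinearMap.BilinForm F U} (hS : ∀ a b, g a b = g b a) {x : U} (hx : g x x = 1) (z : U) :
    z - g x z • x ∈ perpSub g x := by
  rw [mem_perpSub, map_sub, map_smul, hx]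
  simp

theorem restrict_nondeg {g : LinearMap.BilinForm F U} (hS : ∀ a b, g a b = g b a) (hN : g.Nondegenerate) {x : U}
    (hx : g x x = 1) : (g.restrict (perpSub g x)).Nondegenerate := by
  have hl : ∀ a : perpSub g x, (∀ b : perpSub g x, g.restrict (perpSub g x) a b = 0) → a = 0 := by
    intro a ha
    apply Subtype.ext
    apply hN.1
    intro z
    have h1 := ha ⟨_, sub_mem_perp hS hx z⟩
    have h2 : g (a : U) (z - g x z • x) = 0 := h1
    have h3 : g (a : U) x = 0 := by
      rw [hS]
      exact mem_perpSub.mp a.2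
    rw [map_sub, map_smul, h3] at h2
    simpa using h2
  refine ⟨hl, fun a ha => hl a fun b => ?_⟩
  have := ha b
  show g (a : U) (b : U) = 0
  rw [hS]
  exact this

theorem card_onb_step {n : ℕ} (g : LinearMap.BilinForm F U) (hS : ∀ a b, g a b = g b a) :
    Nat.card (hypB g (id : Fin (n + 1) → Fin (n + 1))) =
      Nat.card (Σ x : {x : U // g x x = 1}, hypB (g.restrict (perpSub g x.1)) (id : Fin n → Fin n)) := by
  classical
  refine Nat.card_congr
    { toFun := fun b => ⟨⟨b.1 0, ?_⟩, ⟨fun i => ⟨b.1 i.succ, ?_⟩, ?_⟩⟩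
      invFun := fun p => ⟨Fin.cons p.1.1 (fun i => (p.2.1 i : U)), ?_⟩
      left_inv := ?_
      right_inv := ?_ }
  · have := b.2 0 0
    simpa using this
  · rw [mem_perpSub]
    have := b.2 0 i.succ
    simpa [(Fin.succ_ne_zero i).symm] using this
  · intro i j
    have := b.2 i.succ j.succ
    simpa [Fin.succ_inj] using this
  · intro i j
    refine Fin.cases ?_ (fun i => ?_) i <;> refine Fin.cases ?_ (fun j => ?_) j
    · simpa using p.1.2
    · have := mem_perpSub.mp (p.2.1 j).2
      simpa [Fin.succ_ne_zero, (Fin.succ_ne_zero j).symm] using this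
    · have := mem_perpSub.mp (p.2.1 i).2
      rw [hS] at this
      simpa [Fin.succ_ne_zero, (Fin.succ_ne_zero i).symm] using this
    · have := p.2.2 i j
      simpa [Fin.succ_inj] using this
  · rintro ⟨b, hb⟩
    apply Subtype.ext
    funext i
    refine Fin.cases ?_ (fun i => ?_) i <;> simp
  · rintro ⟨⟨x, hx⟩, ⟨c, hc⟩⟩
    simp
    rfl

theorem exists_w (g : LinearMap.BilinForm F U) (hS : ∀ a b, g a b = g b a) (hN : g.Nondegenerate)
    (hna : ∃ a, g a a ≠ 0) {n : ℕ} (hU : finrank F U = n) :
    ∃ w : U, (∀ z, g z z = (g z w) ^ 2) ∧ g w w = (n : F) := by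
  classical
  obtain ⟨b, hb⟩ := Cfsg.Agent.S2622.result hU g ⟨hS⟩ hN hna
  have key : ∀ c d : Fin n → F, g (∑ i, c i • b i) (∑ j, d j • b j) = ∑ i, c i * d i := by
    intro c d
    simp only [map_sum, LinearMap.sum_apply, map_smul, LinearMap.smul_apply, hb, smul_eq_mul]
    refine Finset.sum_congr rfl fun i _ => ?_
    simp [mul_comm]
  have hone : ∑ j, b j = ∑ j, (1 : Fin n → F) j • b j := by simp
  refine ⟨∑ i, b i, fun z => ?_, ?_⟩
  · have hz : z = ∑ i, b.repr z i • b i := (b.sum_repr z).symm
    set c := b.repr z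
    rw [hz, hone, key, key]
    simp only [Pi.one_apply, mul_one]
    rw [sum_pow_char 2]
    simp [pow_two]
  · rw [hone, key]
    simp

theorem eq_one_of_sq {a : F} (h : a ^ 2 = 1) : a = 1 := by
  have h2 : (2 : F) = 0 := by exact_mod_cast CharP.cast_eq_zero F 2
  have : (a - 1) ^ 2 = 0 := by linear_combination h - (a - 1) * h2
  exact sub_eq_zero.mp (pow_eq_zero_iff (two_ne_zero) |>.mp this)

/-- The `x ≠ w` case. -/
theorem nonalt_restrict {g : LinearMap.BilinForm F U} (hS : ∀ a b, g a b = g b a) (hN : g.Nondegenerate) {w : U}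
    (hw : ∀ z, g z z = (g z w) ^ 2) {x : U} (hx : g x x = 1) (hxw : x ≠ w) :
    ∃ p : perpSub g x, g.restrict (perpSub g x) p p ≠ 0 := by
  by_contra hcon
  push Not at hcon
  apply hxw
  have hxw1 : g x w = 1 := by
    apply eq_one_of_sq
    rw [← hw, hx]
  have h0 : ∀ z, g z (x - w) = 0 := by
    intro z
    have h1 := hcon ⟨_, sub_mem_perp hS hx z⟩
    have h2 : g (z - g x z • x) (z - g x z • x) = 0 := h1
    rw [hw] at h2
    have h3 : g (z - g x z • x) w = 0 := by
      simpa using h2
    rw [map_sub, LinearMap.sub_apply, map_smul, LinearMap.smul_apply, hxw1] at h3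
    rw [map_sub, hS z x]
    simp at h3
    rw [sub_eq_zero.mp h3]
    simp [hS z w]
  exact sub_eq_zero.mp (hN.2 _ h0)

theorem alt_restrict {g : LinearMap.BilinForm F U} (hS : ∀ a b, g a b = g b a) {w : U}
    (hw : ∀ z, g z z = (g z w) ^ 2) (p : perpSub g w) : g.restrict (perpSub g w) p p = 0 := by
  show g (p : U) (p : U) = 0
  rw [hw, hS, mem_perpSub.mp p.2]
  simp

theorem card_hypB_empty {P : Type*} [AddCommGroup P] [Module F P] (h : LinearMap.BilinForm F P) (hz : ∀ p, h p p = 0) (k : ℕ) :
    Nat.card (hypB h (id : Fin (k + 1) → Fin (k + 1))) = 0 := by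
  haveI : IsEmpty (hypB h (id : Fin (k + 1) → Fin (k + 1))) := by
    refine ⟨fun b => ?_⟩
    have := b.2 0 0
    rw [hz] at this
    simp at this
  exact Nat.card_of_isEmpty

/-- **The number of orthonormal bases.** -/
theorem card_onb {q : ℕ} (hq : Nat.card F = q) (n : ℕ) : ∀ (U : Type v) [AddCommGroup U] [Module F U] [FiniteDimensional F U]
    (g : LinearMap.BilinForm F U), (∀ a b, g a b = g b a) → g.Nondegenerate → (∃ a, g a a ≠ 0) →
    finrank F U = n + 1 → Nat.card (hypB g (id : Fin (n + 1) → Fin (n + 1))) = onum q (n + 1) := by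
  induction n with
  | zero =>
    intro U _ _ _ g hS hN hna hU
    classical
    haveI : Finite U := Module.finite_of_finite F
    obtain ⟨w, hw, hww⟩ := exists_w g hS hN hna hU
    have hΛ : Nat.card {x : U // g x x = 1} = 1 := by
      obtain ⟨a, ha⟩ := hna
      have hΛ' : ∀ x, g x x = 1 ↔ g.flip w x = 1 := by
        intro x
        show _ ↔ g x w = 1
        rw [hw]
        exact ⟨eq_one_of_sq, fun h => by rw [h]; simp⟩
      have ha' : g.flip w ((g a w)⁻¹ • a) = 1 := by
        have h1 : g a w ≠ 0 := by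
          intro h0
          apply ha
          rw [hw, h0]
          simp
        show g ((g a w)⁻¹ • a) w = 1
        rw [map_smul, LinearMap.smul_apply, smul_eq_mul, inv_mul_cancel₀ h1]
      rw [Nat.card_congr (Equiv.subtypeEquivRight hΛ'), (card_fibre hq hU _ ha').1]
      simp
    rw [card_onb_step g hS]
    haveI : Fintype {x : U // g x x = 1} := Fintype.ofFinite _
    rw [Nat.card_sigma]
    have h1 : ∀ x : {x : U // g x x = 1}, Nat.card (hypB (g.restrict (perpSub g x.1)) (id : Fin 0 → Fin 0)) = 1 := by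
      intro x
      haveI : Unique (hypB (g.restrict (perpSub g x.1)) (id : Fin 0 → Fin 0)) :=
        { default := ⟨fun i => i.elim0, fun i => i.elim0⟩
          uniq := fun b => Subtype.ext (funext fun i => i.elim0) }
      exact Nat.card_unique
    simp only [h1]
    simp only [Finset.sum_const, Finset.card_univ, smul_eq_mul, mul_one]
    rw [← Nat.card_eq_fintype_card, hΛ]
    rfl
  | succ k ih =>
    intro U _ _ _ g hS hN hna hU
    classical
    haveI : Finite U := Module.finite_of_finite F
    obtain ⟨w, hw, hww⟩ := exists_w g hS hN hna hU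
    have hΛ' : ∀ x, g x x = 1 ↔ g.flip w x = 1 := by
      intro x
      show _ ↔ g x w = 1
      rw [hw]
      exact ⟨eq_one_of_sq, fun h => by rw [h]; simp⟩
    have hΛ : Nat.card {x : U // g x x = 1} = q ^ (k + 1) := by
      obtain ⟨a, ha⟩ := hna
      have ha' : g.flip w ((g a w)⁻¹ • a) = 1 := by
        have h1 : g a w ≠ 0 := by
          intro h0
          apply ha
          rw [hw, h0]
          simp
        show g ((g a w)⁻¹ • a) w = 1
        rw [map_smul, LinearMap.smul_apply, smul_eq_mul, inv_mul_cancel₀ h1]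
      rw [Nat.card_congr (Equiv.subtypeEquivRight hΛ'), (card_fibre hq hU _ ha').1]
    have hfin : ∀ x : U, g x x = 1 → finrank F (perpSub g x) = k + 1 := by
      intro x hx
      exact (card_fibre hq hU (g x) hx).2
    have hval : ∀ x : {x : U // g x x = 1}, x.1 ≠ w →
        Nat.card (hypB (g.restrict (perpSub g x.1)) (id : Fin (k + 1) → Fin (k + 1))) = onum q (k + 1) := by
      intro x hxw
      obtain ⟨p, hp⟩ := nonalt_restrict hS hN hw x.2 hxw
      apply ih (perpSub g x.1) _ (fun a b => hS _ _) (restrict_nondeg hS hN x.2) ⟨p, hp⟩ (hfin x.1 x.2)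
    rw [card_onb_step g hS]
    haveI : Fintype {x : U // g x x = 1} := Fintype.ofFinite _
    rw [Nat.card_sigma]
    have h2F : (2 : F) = 0 := by exact_mod_cast CharP.cast_eq_zero F 2
    rw [onum]
    have hcardΛ : Fintype.card {x : U // g x x = 1} = q ^ (k + 1) := by
      rw [← Nat.card_eq_fintype_card, hΛ]
    by_cases hk : Even k
    · rw [if_pos hk]
      have hw0 : g w w = 0 := by
        rw [hww]
        obtain ⟨c, rfl⟩ := hk
        have : ((c + c + 1 + 1 : ℕ) : F) = (c + 1 : ℕ) * 2 := by push_cast; ring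
        rw [this, h2F, mul_zero]
      have hne : ∀ x : {x : U // g x x = 1}, x.1 ≠ w := by
        intro x h
        have := x.2
        rw [h, hw0] at this
        exact zero_ne_one this
      simp only [fun x => hval x (hne x)]
      simp only [Finset.sum_const, Finset.card_univ, smul_eq_mul, hcardΛ]
    · rw [if_neg hk]
      have hw1 : g w w = 1 := by
        rw [hww]
        obtain ⟨c, rfl⟩ := Nat.not_even_iff_odd.mp hk
        have : ((2 * c + 1 + 1 + 1 : ℕ) : F) = (c + 1 : ℕ) * 2 + 1 := by push_cast; ring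
        rw [this, h2F, mul_zero, zero_add]
      let w' : {x : U // g x x = 1} := ⟨w, hw1⟩
      have hv : ∀ x : {x : U // g x x = 1},
          Nat.card (hypB (g.restrict (perpSub g x.1)) (id : Fin (k + 1) → Fin (k + 1))) =
            if x = w' then 0 else onum q (k + 1) := by
        intro x
        by_cases hxw : x = w'
        · rw [if_pos hxw, hxw]
          exact card_hypB_empty _ (alt_restrict hS hw) k
        · rw [if_neg hxw]
          exact hval x (fun h => hxw (Subtype.ext h))
      simp only [hv]
      rw [Finset.sum_ite, Finset.sum_const_zero, zero_add, Finset.sum_const, smul_eq_mul]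
      congr 1
      rw [Finset.filter_ne' , Finset.card_erase_of_mem (Finset.mem_univ _), Finset.card_univ, hcardΛ]

end onb

section hyp

variable {U : Type v} [AddCommGroup U] [Module F U] [FiniteDimensional F U]

/-- **The number of hyperbolic bases.** -/
theorem card_hyp {q r : ℕ} (hq : Nat.card F = q) (g : LinearMap.BilinForm F U) (hA : g.IsAlt) (hN : g.Nondegenerate)
    (hU : finrank F U = 2 * r) :
    Nat.card (hypB g (Sum.swap : Fin r ⊕ Fin r → Fin r ⊕ Fin r)) = spnum q r := by
  classical
  haveI : Finite U := Module.finite_of_finite F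
  have hV : Nat.card U = q ^ (2 * r) := by
    rw [Module.natCard_eq_pow_finrank (K := F), hU, hq]
  rw [spnum, ← Cfsg.Agent.Lib.Classical.AltCount.card_frames hq r U g hA hN hV]
  have hneg : ∀ a b, g a b = g b a := by
    intro a b
    have h2 : (2 : F) = 0 := by exact_mod_cast CharP.cast_eq_zero F 2
    have := hA.neg_eq a b
    linear_combination this + (g a b) * h2
  refine Nat.card_congr
    { toFun := fun b => ⟨fun i => (b.1 (Sum.inl i), b.1 (Sum.inr i)), fun i j => ⟨?_, ?_, ?_⟩⟩
      invFun := fun p => ⟨fun i => Sum.elim (fun i => (p.1 i).1) (fun i => (p.1 i).2) i, ?_⟩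
      left_inv := ?_
      right_inv := ?_ }
  · have := b.2 (Sum.inl i) (Sum.inl j)
    simpa using this
  · have := b.2 (Sum.inr i) (Sum.inr j)
    simpa using this
  · have := b.2 (Sum.inl i) (Sum.inr j)
    simpa using this
  · rintro (i | i) (j | j)
    · have := (p.2 i j).1
      simpa using this
    · have := (p.2 i j).2.2
      simpa using this
    · have := (p.2 j i).2.2
      simp only [Sum.elim_inr, Sum.elim_inl, Sum.swap_inl, Sum.inr.injEq]
      rw [hneg, this]
      simp [eq_comm]
    · have := (p.2 i j).2.1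
      simpa using this
  · rintro ⟨b, hb⟩
    apply Subtype.ext
    funext i
    rcases i with i | i <;> rfl
  · rintro ⟨p, hp⟩
    rfl

end hyp

end Cfsg.Agent.Lib.Inv2.FormCount
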