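import Mathlib
import Cfsg.Agent.Lib.Inv2.Core

/-!
# Counting totally isotropic frames
-/

set_option autoImplicit false
set_option linter.unusedSectionVars false
set_option linter.unusedSimpArgs false

namespace Cfsg.Agent.Lib.Inv2.FrameCount

open Module Cfsg.Agent.Lib.Inv2.Core

variable {F V : Type*} [Field F] [AddCommGroup V] [Module F V]

/-- Totally isotropic independent frames with a side condition. -/
def frames (f : LinearMap.BilinForm F V) (R : V → Prop) (k : ℕ) : Set (Fin k → V) :=
  {y | LinearIndependent F y ∧ (∀ i j, f (y i) (y j) = 0) ∧ ∀ i, R (y i)}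

/-- The perpendicular space of a family. -/
noncomputable def perpFam (f : LinearMap.BilinForm F V) {I : Type*} (y : I → V) : Submodule F V :=
  LinearMap.ker (LinearMap.pi fun j => f (y j))

theorem mem_perpFam {f : LinearMap.BilinForm F V} {I : Type*} {y : I → V} {v : V} :
    v ∈ perpFam f y ↔ ∀ j, f (y j) v = 0 := by
  rw [perpFam, LinearMap.mem_ker]
  exact funext_iff

/-- The number of extensions of a frame. -/
def ext (f : LinearMap.BilinForm F V) (R : V → Prop) {k : ℕ} (y : Fin k → V) : Set V :=
  {v | v ∈ perpFam f y ∧ v ∉ Submodule.span F (Set.range y) ∧ R v}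

/-- The frames of one more vector. -/
theorem card_frames_succ {f : LinearMap.BilinForm F V} (hS : ∀ a b, f a b = f b a) (hA : ∀ v, f v v = 0)
    {R : V → Prop} {k c : ℕ} [Finite V] (hc : ∀ y ∈ frames f R k, Nat.card (ext f R y) = c) :
    Nat.card (frames f R (k + 1)) = Nat.card (frames f R k) * c := by
  classical
  have e : frames f R (k + 1) ≃ Σ y : frames f R k, ext f R y.1 :=
    { toFun := fun z => ⟨⟨Fin.init z.1, ?_⟩, ⟨z.1 (Fin.last k), ?_⟩⟩
      invFun := fun p => ⟨Fin.snoc p.1.1 p.2.1, ?_⟩
      left_inv := ?_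
      right_inv := ?_ }
  · rw [Nat.card_congr e]
    haveI : Fintype (frames f R k) := Fintype.ofFinite _
    rw [Nat.card_sigma]
    simp only [fun y : frames f R k => hc y.1 y.2]
    simp [Nat.card_eq_fintype_card]
  · obtain ⟨z, hz, hT, hR⟩ := z
    have hz' := hz
    rw [← Fin.snoc_init_self z, linearIndependent_finSnoc] at hz'
    exact ⟨hz'.1, fun i j => hT _ _, fun i => hR _⟩
  · obtain ⟨z, hz, hT, hR⟩ := z
    have hz' := hz
    rw [← Fin.snoc_init_self z, linearIndependent_finSnoc] at hz'
    refine ⟨?_, ?_, hR _⟩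
    · rw [mem_perpFam]
      intro j
      exact hT _ _
    · simpa using hz'.2
  · obtain ⟨⟨y, hy, hT, hR⟩, ⟨v, hv1, hv2, hv3⟩⟩ := p
    refine ⟨?_, ?_, ?_⟩
    · rw [linearIndependent_finSnoc]
      exact ⟨hy, hv2⟩
    · intro i j
      refine Fin.lastCases ?_ (fun i => ?_) i <;> refine Fin.lastCases ?_ (fun j => ?_) j
      · simpa using hA v
      · simp only [Fin.snoc_last, Fin.snoc_castSucc]
        rw [hS]
        exact mem_perpFam.mp hv1 j
      · simp only [Fin.snoc_last, Fin.snoc_castSucc]
        exact mem_perpFam.mp hv1 i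
      · simp only [Fin.snoc_castSucc]
        exact hT i j
    · intro i
      refine Fin.lastCases ?_ (fun i => ?_) i
      · simpa using hv3
      · simpa using hR i
  · rintro ⟨z, hz⟩
    apply Subtype.ext
    exact Fin.snoc_init_self z
  · rintro ⟨⟨y, hy⟩, ⟨v, hv⟩⟩
    have h0 : Fin.init (Fin.snoc y v : Fin (k + 1) → V) = y := Fin.init_snoc _ _
    refine Sigma.ext (Subtype.ext h0) ?_
    refine (Subtype.heq_iff_coe_eq ?_).2 ?_
    · intro x
      show x ∈ ext f R (Fin.init (Fin.snoc y v : Fin (k + 1) → V)) ↔ x ∈ ext f R y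
      rw [h0]
    · simp

variable [Finite F] [FiniteDimensional F V]

theorem card_perpFam {f : LinearMap.BilinForm F V} (hS : ∀ a b, f a b = f b a)
    (hN : ∀ x, (∀ y, f x y = 0) → x = 0) {q n k : ℕ} (hq : Nat.card F = q) (hV : finrank F V = n)
    {y : Fin k → V} (hy : LinearIndependent F y) : Nat.card (perpFam f y) = q ^ (n - k) := by
  classical
  have hfr : finrank F (perpFam f y) = n - k := by
    have h1 := LinearMap.finrank_range_add_finrank_ker (LinearMap.pi fun j => f (y j) : V →ₗ[F] (Fin k → F))
    have h2 : LinearMap.range (LinearMap.pi fun j => f (y j) : V →ₗ[F] (Fin k → F)) = ⊤ := by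
      rw [LinearMap.range_eq_top]
      intro c
      obtain ⟨v, hv⟩ := exists_dual_family hS hN hy c
      refine ⟨v, ?_⟩
      funext j
      simp only [LinearMap.pi_apply]
      rw [hS, hv]
    rw [h2, finrank_top, finrank_fin_fun, hV] at h1
    exact Nat.eq_sub_of_add_eq' h1
  rw [Module.natCard_eq_pow_finrank (K := F), hfr, hq]

theorem card_span {q k : ℕ} (hq : Nat.card F = q) {y : Fin k → V} (hy : LinearIndependent F y) :
    Nat.card (Submodule.span F (Set.range y)) = q ^ k := by
  rw [Module.natCard_eq_pow_finrank (K := F), finrank_span_eq_card hy, hq]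
  simp

/-- Subtraction for counts. -/
theorem card_and_not {α : Type*} [Finite α] (P A : α → Prop) (h : ∀ a, A a → P a) :
    Nat.card {a // P a ∧ ¬ A a} + Nat.card {a // A a} = Nat.card {a // P a} := by
  classical
  haveI : Fintype α := Fintype.ofFinite α
  simp only [Nat.card_eq_fintype_card, Fintype.card_subtype]
  rw [← Finset.card_filter_add_card_filter_not (s := Finset.univ.filter P) A]
  rw [Finset.filter_filter, Finset.filter_filter, add_comm]
  congr 2
  ext a
  simp only [Finset.mem_filter, Finset.mem_univ, true_and]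
  exact ⟨fun h1 => ⟨h a h1, h1⟩, fun h1 => h1.2⟩

/-- The extension count in terms of the counts on the two subspaces. -/
theorem card_ext {f : LinearMap.BilinForm F V} {R : V → Prop} {k : ℕ} {y : Fin k → V}
    (hle : Submodule.span F (Set.range y) ≤ perpFam f y) :
    Nat.card (ext f R y) + Nat.card {v // v ∈ Submodule.span F (Set.range y) ∧ R v} =
      Nat.card {v // v ∈ perpFam f y ∧ R v} := by
  haveI : Finite V := Module.finite_of_finite F
  rw [← card_and_not (fun v => v ∈ perpFam f y ∧ R v) (fun v => v ∈ Submodule.span F (Set.range y) ∧ R v)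
    (fun a ha => ⟨hle ha.1, ha.2⟩)]
  congr 1
  apply Nat.card_congr
  apply Equiv.subtypeEquivRight
  intro v
  show (v ∈ perpFam f y ∧ v ∉ Submodule.span F (Set.range y) ∧ R v) ↔ _
  tauto

theorem span_le_perp {f : LinearMap.BilinForm F V} {I : Type*} {y : I → V} (hT : ∀ i j, f (y i) (y j) = 0) :
    Submodule.span F (Set.range y) ≤ perpFam f y := by
  rw [Submodule.span_le]
  rintro _ ⟨i, rfl⟩
  exact mem_perpFam.mpr fun j => hT j i

/-- **The symplectic frame count.** -/
theorem card_frames_sp {f : LinearMap.BilinForm F V} (hS : ∀ a b, f a b = f b a) (hA : ∀ v, f v v = 0)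
    (hN : ∀ x, (∀ y, f x y = 0) → x = 0) {q n : ℕ} (hq : Nat.card F = q) (hV : finrank F V = n) (s : ℕ) :
    Nat.card (frames f (fun _ => True) s) = ∏ k ∈ Finset.range s, (q ^ (n - k) - q ^ k) := by
  classical
  haveI : Finite V := Module.finite_of_finite F
  induction s with
  | zero =>
    simp only [Finset.range_zero, Finset.prod_empty]
    haveI : Unique (frames f (fun _ => True) 0) :=
      { default := ⟨fun i => i.elim0, linearIndependent_empty_type, fun i => i.elim0, fun i => i.elim0⟩
        uniq := fun b => Subtype.ext (funext fun i => i.elim0) }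
    exact Nat.card_unique
  | succ s ih =>
    rw [card_frames_succ hS hA (c := q ^ (n - s) - q ^ s), ih, Finset.prod_range_succ]
    rintro y ⟨hy, hT, -⟩
    have h1 := card_ext (f := f) (R := fun _ => True) (span_le_perp hT)
    simp only [and_true] at h1
    have h2 : Nat.card {v // v ∈ Submodule.span F (Set.range y)} = q ^ s := card_span hq hy
    have h3 : Nat.card {v // v ∈ perpFam f y} = q ^ (n - s) := card_perpFam hS hN hq hV hy
    rw [h2, h3] at h1
    omega

end Cfsg.Agent.Lib.Inv2.FrameCount
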