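import Mathlib
import Cfsg.Agent.Lib.Inv2.FormCount
import Cfsg.Agent.Lib.Inv2.FrameCount

/-!
# The general centraliser count for involutions in characteristic two
-/

set_option autoImplicit false
set_option linter.unusedSectionVars false
set_option linter.unusedSimpArgs false

namespace Cfsg.Agent.Lib.Inv2.CentMain

open Module Cfsg.Agent.Lib.Inv2.Core Cfsg.Agent.Lib.Inv2.Group Cfsg.Agent.Lib.Inv2.CentCore
  Cfsg.Agent.Lib.Inv2.FormCount Cfsg.Agent.Lib.Inv2.FrameCount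

variable {F V : Type*} [Field F] [AddCommGroup V] [Module F V]

/-- Frames with an arbitrary index set. -/
def framesI (f : LinearMap.BilinForm F V) (R : V → Prop) (I : Type*) : Set (I → V) :=
  {y | LinearIndependent F y ∧ (∀ i j, f (y i) (y j) = 0) ∧ ∀ i, R (y i)}

theorem card_framesI (f : LinearMap.BilinForm F V) (R : V → Prop) {I : Type*} [Fintype I] {s : ℕ}
    (hI : Fintype.card I = s) : Nat.card (framesI f R I) = Nat.card (frames f R s) := by
  let e : I ≃ Fin s := Fintype.equivFinOfCardEq hI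
  refine Nat.card_congr
    { toFun := fun y => ⟨fun i => y.1 (e.symm i), ?_⟩
      invFun := fun y => ⟨fun i => y.1 (e i), ?_⟩
      left_inv := ?_
      right_inv := ?_ }
  · obtain ⟨y, h1, h2, h3⟩ := y
    exact ⟨h1.comp _ e.symm.injective, fun i j => h2 _ _, fun i => h3 _⟩
  · obtain ⟨y, h1, h2, h3⟩ := y
    exact ⟨h1.comp _ e.injective, fun i j => h2 _ _, fun i => h3 _⟩
  · rintro ⟨y, hy⟩
    apply Subtype.ext
    funext i
    simp
  · rintro ⟨y, hy⟩
    apply Subtype.ext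
    funext i
    simp

variable [FiniteDimensional F V] [CharP F 2] {I : Type*} [Fintype I] [DecidableEq I] [Nonempty I]
  {f : LinearMap.BilinForm F V} {τ : I → I}

/-- **The general centraliser count.** -/
theorem cent_count (hS : ∀ a b, f a b = f b a) (hN : ∀ x, (∀ y, f x y = 0) → x = 0) (hτ : Function.Involutive τ)
    (G : Subgroup (V ≃ₗ[F] V)) [Finite G] (hG : ∀ g ∈ G, ∀ a b, f (g a) (g b) = f a b)
    (t : G) (t2 : (t : V ≃ₗ[F] V) * (t : V ≃ₗ[F] V) = 1) {y₀ : I → V} (hy₀ : LinearIndependent F y₀)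
    (hT : ∀ i j, f (y₀ i) (y₀ j) = 0) (hNf : ∀ v, nOf (t : V ≃ₗ[F] V) v = normN f τ y₀ v)
    {R : V → Prop} (hR₀ : ∀ i, R (y₀ i)) (hGR : ∀ g ∈ G, ∀ v, R v → R (g v))
    (hWitt : ∀ y : I → V, LinearIndependent F y → (∀ i j, f (y i) (y j) = 0) → (∀ i, R (y i)) →
      ∃ σ ∈ G, ∀ i, σ (y₀ i) = y i)
    (hYR : ∀ y ∈ Yset f τ (nOf (t : V ≃ₗ[F] V)), ∀ i, R (y i))
    {U : Submodule F V} (hU : IsCompl U (LinearMap.ker (nOf (t : V ≃ₗ[F] V)))) :
    Nat.card (Subgroup.centralizer ({t} : Set G)) * Nat.card (framesI f R I) =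
      Nat.card (hypB (gU f (nOf (t : V ≃ₗ[F] V)) U) τ : Set (I → U)) * Nat.card G := by
  have hiso := hG t t.2
  have hrange : Set.range (oMap G y₀) = framesI f R I := by
    ext y
    constructor
    · rintro ⟨g, rfl⟩
      refine ⟨?_, ?_, ?_⟩
      · have : LinearMap.ker ((g : V ≃ₗ[F] V) : V →ₗ[F] V) = ⊥ := LinearEquiv.ker _
        exact hy₀.map' _ this
      · intro i j
        show f ((g : V ≃ₗ[F] V) (y₀ i)) ((g : V ≃ₗ[F] V) (y₀ j)) = 0
        rw [hG _ g.2, hT]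
      · intro i
        exact hGR _ g.2 _ (hR₀ i)
    · rintro ⟨h1, h2, h3⟩
      obtain ⟨σ, hσ, hσy⟩ := hWitt y h1 h2 h3
      exact ⟨⟨σ, hσ⟩, funext hσy⟩
  have hmain := card_main (τ := τ) (f := f) G hG t hy₀ hT (fun v => (hNf v).symm) (by
    intro y hy
    rw [hrange]
    exact ⟨hy.1, hy.2.1, hYR y hy⟩)
  have hcard : Fintype.card I = finrank F U := by
    rw [finrank_compl_eq hU]
    have : nOf (t : V ≃ₗ[F] V) = normN f τ y₀ := LinearMap.ext hNf
    rw [this, finrank_range_normN hS hN hτ hy₀]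
  rw [hrange] at hmain
  rw [hmain, card_Yset hS hN hτ (nOf_adj t2 hiso) (nOf_sq t2) hU hcard]

theorem gU_nonalt {N : V →ₗ[F] V} (hadj : ∀ x y, f (N x) y = f x (N y)) {U : Submodule F V} (hU : IsCompl U (LinearMap.ker N))
    (hx : ∃ x, f x (N x) ≠ 0) : ∃ a : U, gU f N U a a ≠ 0 := by
  obtain ⟨x, hx⟩ := hx
  have hz : x ∈ U ⊔ LinearMap.ker N := by rw [hU.sup_eq_top]; trivial
  obtain ⟨u, hu, k, hk, rfl⟩ := Submodule.mem_sup.mp hz
  rw [LinearMap.mem_ker] at hk
  refine ⟨⟨u, hu⟩, ?_⟩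
  rw [gU_apply]
  intro h0
  apply hx
  rw [map_add N, hk, add_zero, map_add, LinearMap.add_apply, ← hadj k, hk]
  simpa using h0

theorem gU_alt {N : V →ₗ[F] V} {U : Submodule F V} (hx : ∀ x, f x (N x) = 0) : (gU f N U).IsAlt := by
  intro a
  rw [gU_apply]
  exact hx a

variable [Finite F]

/-- The value of the count of dual bases: the non-alternating case. -/
theorem card_hypB_id (hS : ∀ a b, f a b = f b a) (hN : ∀ x, (∀ y, f x y = 0) → x = 0) {q s : ℕ} (hq : Nat.card F = q)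
    {N : V →ₗ[F] V} (hadj : ∀ x y, f (N x) y = f x (N y)) {U : Submodule F V} (hU : IsCompl U (LinearMap.ker N))
    (hx : ∃ x, f x (N x) ≠ 0) (hs : finrank F (LinearMap.range N) = s + 1) :
    Nat.card (hypB (gU f N U) (id : Fin (s + 1) → Fin (s + 1))) = onum q (s + 1) :=
  card_onb hq s U (gU f N U) (fun a b => gU_symm hS hadj U a b) (gU_nondeg hS hN hadj hU)
    (gU_nonalt hadj hU hx) ((finrank_compl_eq hU).trans hs)

theorem card_hypB_swap (hS : ∀ a b, f a b = f b a) (hN : ∀ x, (∀ y, f x y = 0) → x = 0) {q r : ℕ} (hq : Nat.card F = q)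
    {N : V →ₗ[F] V} (hadj : ∀ x y, f (N x) y = f x (N y)) {U : Submodule F V} (hU : IsCompl U (LinearMap.ker N))
    (hx : ∀ x, f x (N x) = 0) (hs : finrank F (LinearMap.range N) = 2 * r) :
    Nat.card (hypB (gU f N U) (Sum.swap : Fin r ⊕ Fin r → Fin r ⊕ Fin r)) = spnum q r :=
  card_hyp hq (gU f N U) (gU_alt hx) (gU_nondeg hS hN hadj hU) ((finrank_compl_eq hU).trans hs)

end Cfsg.Agent.Lib.Inv2.CentMain
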