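import Mathlib
import Cfsg.Agent.Lib.Inv2.CentMain
import Cfsg.Agent.Lib.Classical.SympCount

/-!
# Centralisers of involutions in `Sp_{2m}(q)`, `q` even
-/

set_option autoImplicit false
set_option linter.unusedSectionVars false
set_option linter.unusedSimpArgs false

namespace Cfsg.Agent.Lib.Inv2.CentSp

open Module Cfsg.Agent.Lib.Inv2.Core Cfsg.Agent.Lib.Inv2.Group Cfsg.Agent.Lib.Inv2.CentCore
  Cfsg.Agent.Lib.Inv2.FormCount Cfsg.Agent.Lib.Inv2.FrameCount Cfsg.Agent.Lib.Inv2.CentMain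
  Cfsg.Agent.Lib.Classical.Alt Cfsg.Agent.Lib.Classical.SympForm

/-- The exponent polynomial. -/
theorem tri_succ (s : ℕ) : (3 * (s + 1) ^ 2 - (s + 1)) / 2 = (3 * s ^ 2 - s) / 2 + 3 * s + 1 := by
  have h1 : (s + 1) ^ 2 = s ^ 2 + 2 * s + 1 := by ring
  have h2 : s ≤ s ^ 2 := by nlinarith [Nat.zero_le s, sq_nonneg s, Nat.le_self_pow (n := 2) (by norm_num) s]
  rw [h1]
  generalize s ^ 2 = a at *
  omega

theorem factor_eq {q a s m : ℕ} (hm : m = s + a + 1) : q ^ (2 * m - s) - q ^ s = q ^ s * (q ^ (2 * a + 2) - 1) := by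
  subst hm
  have : 2 * (s + a + 1) - s = s + (2 * a + 2) := by omega
  rw [this, pow_add, Nat.mul_sub, mul_one]

/-- The order of the point stabiliser. -/
theorem sp_arith {q : ℕ} (hq : 1 ≤ q) (m : ℕ) (s : ℕ) (hs : s ≤ m) :
    q ^ ((3 * s ^ 2 - s) / 2) * spnum q m =
      q ^ (2 * m * s) * spnum q (m - s) * ∏ k ∈ Finset.range s, (q ^ (2 * m - k) - q ^ k) := by
  induction s with
  | zero => simp
  | succ s ih =>
    have ih' := ih (by omega)
    obtain ⟨a, rfl⟩ : ∃ a, m = s + a + 1 := ⟨m - s - 1, by omega⟩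
    have h1 : s + a + 1 - s = a + 1 := by omega
    have h2 : s + a + 1 - (s + 1) = a := by omega
    rw [h1, spnum_succ q a hq] at ih'
    rw [h2, Finset.prod_range_succ, factor_eq (a := a) rfl, tri_succ]
    set P := ∏ k ∈ Finset.range s, (q ^ (2 * (s + a + 1) - k) - q ^ k) with hP
    set D := q ^ (2 * a + 2) - 1 with hD
    calc q ^ ((3 * s ^ 2 - s) / 2 + 3 * s + 1) * spnum q (s + a + 1)
        = q ^ (3 * s + 1) * (q ^ ((3 * s ^ 2 - s) / 2) * spnum q (s + a + 1)) := by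
          rw [pow_add, pow_add, pow_add]; ring
      _ = q ^ (3 * s + 1) * (q ^ (2 * (s + a + 1) * s) * (D * (q ^ (2 * a + 1) * spnum q a)) * P) := by rw [ih']
      _ = (q ^ (3 * s + 1) * q ^ (2 * a + 1) * q ^ (2 * (s + a + 1) * s)) * spnum q a * (P * D) := by ring
      _ = q ^ (2 * (s + a + 1) * (s + 1)) * spnum q a * (P * (q ^ s * D)) := by
          have : q ^ (3 * s + 1) * q ^ (2 * a + 1) * q ^ (2 * (s + a + 1) * s) =
              q ^ (2 * (s + a + 1) * (s + 1)) * q ^ s := by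
            rw [← pow_add, ← pow_add, ← pow_add]
            congr 1
            ring
          rw [this]
          ring

/-- From the count to the closed formula. -/
theorem sp_final {q m s C Y : ℕ} (hq : 1 ≤ q) (hs : s ≤ m) {X : ℕ} (hX : X = ∏ k ∈ Finset.range s, (q ^ (2 * m - k) - q ^ k))
    (hX0 : 0 < X) (hC : C * X = Y * spnum q m) :
    C = q ^ (2 * m * s - (3 * s ^ 2 - s) / 2) * Y * spnum q (m - s) := by
  have h1 := sp_arith hq m s hs
  rw [← hX] at h1
  have hT : (3 * s ^ 2 - s) / 2 ≤ 2 * m * s := by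
    have h2 : s ^ 2 ≤ m * s := by nlinarith
    have h3 : 3 * s ^ 2 - s ≤ 4 * (m * s) := by omega
    have h4 : 2 * m * s = 2 * (m * s) := by ring
    rw [h4]
    omega
  have hq0 : 0 < q ^ ((3 * s ^ 2 - s) / 2) := pow_pos hq _
  apply Nat.eq_of_mul_eq_mul_right (Nat.mul_pos hX0 hq0)
  have hE : q ^ (2 * m * s) = q ^ (2 * m * s - (3 * s ^ 2 - s) / 2) * q ^ ((3 * s ^ 2 - s) / 2) := by
    rw [← pow_add]
    congr 1
    omega
  calc C * (X * q ^ ((3 * s ^ 2 - s) / 2)) = (C * X) * q ^ ((3 * s ^ 2 - s) / 2) := by ring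
    _ = Y * (q ^ ((3 * s ^ 2 - s) / 2) * spnum q m) := by rw [hC]; ring
    _ = Y * (q ^ (2 * m * s) * spnum q (m - s) * X) := by rw [h1]
    _ = _ := by rw [hE]; ring

variable {F V : Type*} [Field F] [Finite F] [CharP F 2] [AddCommGroup V] [Module F V] [FiniteDimensional F V]
  {f : LinearMap.BilinForm F V}

theorem symm_of_alt (hA : f.IsAlt) (a b : V) : f a b = f b a := by
  have h2 : (2 : F) = 0 := two_eq_zero'
  have := hA.neg_eq a b
  linear_combination this + (f a b) * h2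

instance finite_isomGroup (f : LinearMap.BilinForm F V) : Finite (isomGroup f) := by
  haveI : Finite V := Module.finite_of_finite F
  haveI : Finite (V ≃ₗ[F] V) := Finite.of_injective (fun g => (g : V → V)) DFunLike.coe_injective
  infer_instance

/-- The non-alternating case. -/
theorem sp_count_nonalt (hA : f.IsAlt) (hB : f.Nondegenerate) {q n : ℕ} (hq : Nat.card F = q) (hV : finrank F V = n)
    (t : isomGroup f) (t2 : (t : V ≃ₗ[F] V) * (t : V ≃ₗ[F] V) = 1) (hx : ∃ x, f x (nOf (t : V ≃ₗ[F] V) x) ≠ 0)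
    {s : ℕ} (hs : finrank F (LinearMap.range (nOf (t : V ≃ₗ[F] V))) = s + 1) :
    Nat.card (Subgroup.centralizer ({t} : Set (isomGroup f))) * ∏ k ∈ Finset.range (s + 1), (q ^ (n - k) - q ^ k) =
      onum q (s + 1) * Nat.card (isomGroup f) := by
  classical
  have hS := symm_of_alt hA
  have hN : ∀ x, (∀ y, f x y = 0) → x = 0 := hB.1
  have hiso : ∀ a b, f ((t : V ≃ₗ[F] V) a) ((t : V ≃ₗ[F] V) b) = f a b := t.2
  obtain ⟨y₀, hy₀, hT, hNf, -⟩ := exists_family_nonalt' hS hN t2 hiso hx hs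
  obtain ⟨U, hU'⟩ := Submodule.exists_isCompl (LinearMap.ker (nOf (t : V ≃ₗ[F] V)))
  have hU := hU'.symm
  have h := cent_count (τ := id) hS hN (fun _ => rfl) (isomGroup f) (fun g hg a b => hg a b) t t2 hy₀ hT hNf
    (R := fun _ => True) (fun _ => trivial) (fun _ _ _ _ => trivial)
    (fun y hy hyT _ => by
      obtain ⟨σ, hσ, hσy⟩ := witt_family hB hA y₀ y hy₀ hy (fun i j => by rw [hT, hyT])
      exact ⟨σ, tGroup_le_isomGroup hA hσ, hσy⟩)
    (fun _ _ _ => trivial) hU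
  rw [card_framesI f _ (Fintype.card_fin _), card_frames_sp hS (fun v => hA v) hN hq hV,
    card_hypB_id hS hN hq (nOf_adj t2 hiso) hU hx hs] at h
  exact h

/-- The alternating case. -/
theorem sp_count_alt (hA : f.IsAlt) (hB : f.Nondegenerate) {q n : ℕ} (hq : Nat.card F = q) (hV : finrank F V = n)
    (t : isomGroup f) (t2 : (t : V ≃ₗ[F] V) * (t : V ≃ₗ[F] V) = 1) (hx : ∀ x, f x (nOf (t : V ≃ₗ[F] V) x) = 0)
    {r : ℕ} (hs : finrank F (LinearMap.range (nOf (t : V ≃ₗ[F] V))) = 2 * (r + 1)) :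
    Nat.card (Subgroup.centralizer ({t} : Set (isomGroup f))) * ∏ k ∈ Finset.range (2 * (r + 1)), (q ^ (n - k) - q ^ k) =
      spnum q (r + 1) * Nat.card (isomGroup f) := by
  classical
  have hS := symm_of_alt hA
  have hN : ∀ x, (∀ y, f x y = 0) → x = 0 := hB.1
  have hiso : ∀ a b, f ((t : V ≃ₗ[F] V) a) ((t : V ≃ₗ[F] V) b) = f a b := t.2
  obtain ⟨y₀, hy₀, hT, hNf⟩ := exists_family_alt' hS hN t2 hiso hx hs
  obtain ⟨U, hU'⟩ := Submodule.exists_isCompl (LinearMap.ker (nOf (t : V ≃ₗ[F] V)))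
  have hU := hU'.symm
  haveI : Nonempty (Fin (r + 1) ⊕ Fin (r + 1)) := ⟨Sum.inl 0⟩
  have h := cent_count (τ := Sum.swap) hS hN Sum.swap_swap (isomGroup f) (fun g hg a b => hg a b) t t2 hy₀ hT hNf
    (R := fun _ => True) (fun _ => trivial) (fun _ _ _ _ => trivial)
    (fun y hy hyT _ => by
      obtain ⟨σ, hσ, hσy⟩ := witt_family hB hA y₀ y hy₀ hy (fun i j => by rw [hT, hyT])
      exact ⟨σ, tGroup_le_isomGroup hA hσ, hσy⟩)
    (fun _ _ _ => trivial) hU
  have hc : Fintype.card (Fin (r + 1) ⊕ Fin (r + 1)) = 2 * (r + 1) := by simp; ring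
  rw [card_framesI f _ hc, card_frames_sp hS (fun v => hA v) hN hq hV,
    card_hypB_swap hS hN hq (nOf_adj t2 hiso) hU hx hs] at h
  exact h

/-- Centralisers under an isomorphism. -/
theorem card_centralizer_congr {G H : Type*} [Group G] [Group H] (e : G ≃* H) (t : G) :
    Nat.card (Subgroup.centralizer ({t} : Set G)) = Nat.card (Subgroup.centralizer ({e t} : Set H)) := by
  refine Nat.card_congr (e.toEquiv.subtypeEquiv fun g => ?_)
  rw [Subgroup.mem_centralizer_singleton_iff, Subgroup.mem_centralizer_singleton_iff]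
  show g * t = t * g ↔ e g * e t = e t * e g
  rw [← map_mul, ← map_mul, e.injective.eq_iff]

section matrix

variable {F : Type*} [Field F] [Fintype F] [CharP F 2] {m : ℕ}

open Matrix Cfsg

theorem rank_sp (t : symplecticGroup (Fin m) F) :
    (((t : Matrix (Fin m ⊕ Fin m) (Fin m ⊕ Fin m) F)) - 1).rank =
      finrank F (LinearMap.range (nOf ((spEquiv t : isomGroup (sympBilin m F)) : (Fin m ⊕ Fin m → F) ≃ₗ[F] (Fin m ⊕ Fin m → F)))) := by
  have hR : LinearMap.range (((t : Matrix (Fin m ⊕ Fin m) (Fin m ⊕ Fin m) F) - 1).mulVecLin) =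
      LinearMap.range (nOf ((spEquiv t : isomGroup (sympBilin m F)) : (Fin m ⊕ Fin m → F) ≃ₗ[F] (Fin m ⊕ Fin m → F))) := by
    have hf : ∀ x, nOf ((spEquiv t : isomGroup (sympBilin m F)) : (Fin m ⊕ Fin m → F) ≃ₗ[F] (Fin m ⊕ Fin m → F)) x =
        - ((t : Matrix (Fin m ⊕ Fin m) (Fin m ⊕ Fin m) F) - 1).mulVecLin x := by
      intro x
      rw [nOf_apply, spEquiv_apply]
      simp [Matrix.sub_mulVec]
    apply le_antisymm
    · rintro _ ⟨x, rfl⟩
      refine ⟨-x, ?_⟩
      rw [hf, map_neg, neg_neg]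
    · rintro _ ⟨x, rfl⟩
      refine ⟨-x, ?_⟩
      rw [hf, map_neg]
  rw [Matrix.rank, hR]

theorem sympBilin_nOf (t : symplecticGroup (Fin m) F) (x : Fin m ⊕ Fin m → F) :
    sympBilin m F x (nOf ((spEquiv t : isomGroup (sympBilin m F)) : (Fin m ⊕ Fin m → F) ≃ₗ[F] (Fin m ⊕ Fin m → F)) x) =
      sympForm m F x ((t : Matrix (Fin m ⊕ Fin m) (Fin m ⊕ Fin m) F).mulVec x) := by
  rw [nOf_apply, spEquiv_apply, map_sub, (sympBilin_isAlt (m := m) (F := F)) x, sympBilin_apply]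
  have h2 : (2 : F) = 0 := two_eq_zero'
  linear_combination (- sympForm m F x ((t : Matrix (Fin m ⊕ Fin m) (Fin m ⊕ Fin m) F).mulVec x)) * h2

theorem card_isom (q : ℕ) (hF : Nat.card F = q) : Nat.card (isomGroup (sympBilin m F)) = spnum q m := by
  rw [← Nat.card_congr (spEquiv (m := m) (F := F)).toEquiv]
  exact Cfsg.Agent.Lib.Classical.SympCount.card_symplecticGroup hF m

theorem finrank_V : finrank F (Fin m ⊕ Fin m → F) = 2 * m := by
  rw [Module.finrank_fintype_fun_eq_card, Fintype.card_sum, Fintype.card_fin]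
  ring

/-- The matrix form of the count. -/
theorem mat_nonalt {q : ℕ} (hF : Fintype.card F = q) (t : symplecticGroup (Fin m) F) (ht : t ^ 2 = 1)
    {s : ℕ} (hs : (((t : Matrix (Fin m ⊕ Fin m) (Fin m ⊕ Fin m) F)) - 1).rank = s + 1)
    (hx : ∃ v : Fin m ⊕ Fin m → F, sympForm m F v ((t : Matrix (Fin m ⊕ Fin m) (Fin m ⊕ Fin m) F).mulVec v) ≠ 0) :
    s + 1 ≤ m ∧ Nat.card (Subgroup.centralizer ({t} : Set (symplecticGroup (Fin m) F))) =
      q ^ (2 * m * (s + 1) - (3 * (s + 1) ^ 2 - (s + 1)) / 2) * onum q (s + 1) * spnum q (m - (s + 1)) := by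
  have hq : Nat.card F = q := by rw [Nat.card_eq_fintype_card, hF]
  have hq1 : 1 ≤ q := by rw [← hF]; exact Fintype.card_pos
  set t' := (spEquiv t : isomGroup (sympBilin m F)) with ht'
  have t2 : (t' : (Fin m ⊕ Fin m → F) ≃ₗ[F] (Fin m ⊕ Fin m → F)) * t' = 1 := by
    have : t' * t' = 1 := by
      rw [ht', ← map_mul, ← pow_two, ht, map_one]
    exact congrArg Subtype.val this
  have hr := rank_sp t
  rw [hs] at hr
  have hle : s + 1 ≤ m := by
    have h1 := two_mul_finrank_le t2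
    rw [finrank_V, ← hr] at h1
    omega
  refine ⟨hle, ?_⟩
  have hcount := sp_count_nonalt sympBilin_isAlt sympBilin_nondegenerate hq finrank_V t' t2 (by
    obtain ⟨v, hv⟩ := hx
    exact ⟨v, by rw [ht', sympBilin_nOf]; exact hv⟩) hr.symm
  rw [card_isom q hq] at hcount
  rw [card_centralizer_congr spEquiv t]
  have hX0 : 0 < ∏ k ∈ Finset.range (s + 1), (q ^ (2 * m - k) - q ^ k) := by
    apply Finset.prod_pos
    intro k hk
    rw [Finset.mem_range] at hk
    have hq2 : 1 < q := by rw [← hF]; exact Fintype.one_lt_card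
    have := Nat.pow_lt_pow_right hq2 (show k < 2 * m - k by omega)
    omega
  have := sp_final (q := q) (m := m) (s := s + 1) hq1 hle rfl hX0 hcount
  rw [this]

/-- The matrix form of the count, alternating case. -/
theorem mat_alt {q : ℕ} (hF : Fintype.card F = q) (t : symplecticGroup (Fin m) F) (ht : t ^ 2 = 1)
    {r : ℕ} (hs : (((t : Matrix (Fin m ⊕ Fin m) (Fin m ⊕ Fin m) F)) - 1).rank = 2 * (r + 1))
    (hx : ∀ v : Fin m ⊕ Fin m → F, sympForm m F v ((t : Matrix (Fin m ⊕ Fin m) (Fin m ⊕ Fin m) F).mulVec v) = 0) :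
    2 * (r + 1) ≤ m ∧ Nat.card (Subgroup.centralizer ({t} : Set (symplecticGroup (Fin m) F))) =
      q ^ (2 * m * (2 * (r + 1)) - (3 * (2 * (r + 1)) ^ 2 - (2 * (r + 1))) / 2) * spnum q (r + 1) * spnum q (m - 2 * (r + 1)) := by
  have hq : Nat.card F = q := by rw [Nat.card_eq_fintype_card, hF]
  have hq1 : 1 ≤ q := by rw [← hF]; exact Fintype.card_pos
  set t' := (spEquiv t : isomGroup (sympBilin m F)) with ht'
  have t2 : (t' : (Fin m ⊕ Fin m → F) ≃ₗ[F] (Fin m ⊕ Fin m → F)) * t' = 1 := by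
    have : t' * t' = 1 := by
      rw [ht', ← map_mul, ← pow_two, ht, map_one]
    exact congrArg Subtype.val this
  have hr := rank_sp t
  rw [hs] at hr
  have hle : 2 * (r + 1) ≤ m := by
    have h1 := two_mul_finrank_le t2
    rw [finrank_V, ← hr] at h1
    omega
  refine ⟨hle, ?_⟩
  have hcount := sp_count_alt sympBilin_isAlt sympBilin_nondegenerate hq finrank_V t' t2 (by
    intro v
    rw [ht', sympBilin_nOf]; exact hx v) hr.symm
  rw [card_isom q hq] at hcount
  rw [card_centralizer_congr spEquiv t]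
  have hX0 : 0 < ∏ k ∈ Finset.range (2 * (r + 1)), (q ^ (2 * m - k) - q ^ k) := by
    apply Finset.prod_pos
    intro k hk
    rw [Finset.mem_range] at hk
    have hq2 : 1 < q := by rw [← hF]; exact Fintype.one_lt_card
    have := Nat.pow_lt_pow_right hq2 (show k < 2 * m - k by omega)
    omega
  have := sp_final (q := q) (m := m) (s := 2 * (r + 1)) hq1 hle rfl hX0 hcount
  rw [this]

theorem spnum_eq_fin (q r : ℕ) :
    q ^ (r ^ 2) * ∏ i : Fin r, (q ^ (2 * ((i : ℕ) + 1)) - 1) = spnum q r := by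
  rw [spnum, Fin.prod_univ_eq_prod_range (fun i => q ^ (2 * (i + 1)) - 1) r]

/-- An odd rank forces the non-alternating type. -/
theorem exists_nonalt_of_odd (t : symplecticGroup (Fin m) F) (ht : t ^ 2 = 1)
    {s : ℕ} (hs : (((t : Matrix (Fin m ⊕ Fin m) (Fin m ⊕ Fin m) F)) - 1).rank = s) (hodd : Odd s) :
    ∃ v : Fin m ⊕ Fin m → F, sympForm m F v ((t : Matrix (Fin m ⊕ Fin m) (Fin m ⊕ Fin m) F).mulVec v) ≠ 0 := by
  by_contra hcon
  push Not at hcon
  set t' := (spEquiv t : isomGroup (sympBilin m F)) with ht'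
  have t2 : (t' : (Fin m ⊕ Fin m → F) ≃ₗ[F] (Fin m ⊕ Fin m → F)) * t' = 1 := by
    have : t' * t' = 1 := by
      rw [ht', ← map_mul, ← pow_two, ht, map_one]
    exact congrArg Subtype.val this
  have hr := rank_sp t
  rw [hs] at hr
  obtain ⟨r, hr2⟩ := exists_even_of_alt (f := sympBilin m F) (g := (t' : (Fin m ⊕ Fin m → F) ≃ₗ[F] (Fin m ⊕ Fin m → F)))
    (symm_of_alt sympBilin_isAlt) sympBilin_nondegenerate.1 t2 t'.2 (fun x => by
      rw [ht', sympBilin_nOf]
      exact hcon x)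
  rw [← hr] at hr2
  subst hr2
  exact (Nat.not_even_iff_odd.mpr hodd) (even_two_mul r)

theorem rank_pos_of_ne (t : symplecticGroup (Fin m) F) (ht1 : t ≠ 1) :
    1 ≤ (((t : Matrix (Fin m ⊕ Fin m) (Fin m ⊕ Fin m) F)) - 1).rank := by
  rw [rank_sp]
  apply finrank_range_pos
  intro h
  apply ht1
  apply spEquiv.injective
  rw [map_one]
  exact Subtype.ext h

theorem rank_pos_of_nonalt (t : symplecticGroup (Fin m) F)
    (hx : ∃ v : Fin m ⊕ Fin m → F, sympForm m F v ((t : Matrix (Fin m ⊕ Fin m) (Fin m ⊕ Fin m) F).mulVec v) ≠ 0) :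
    1 ≤ (((t : Matrix (Fin m ⊕ Fin m) (Fin m ⊕ Fin m) F)) - 1).rank := by
  apply rank_pos_of_ne
  rintro rfl
  obtain ⟨v, hv⟩ := hx
  apply hv
  have := (sympBilin_isAlt (m := m) (F := F)) v
  simpa using this

end matrix

end Cfsg.Agent.Lib.Inv2.CentSp
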