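import Mathlib
import Cfsg.Agent.Lib.Inv2.CentSp
import Cfsg.Agent.Lib.Inv2.Lie2
import Cfsg.Agent.Lib.Inv2.Models
import Cfsg.Agent.S0287
import Cfsg.Agent.Lib.Elusive.QuadCount

/-!
# Centralisers of involutions in `O⁺_{2m}(q)` and `Ω⁺_{2m}(q)`, `q` even
-/

set_option autoImplicit false
set_option linter.unusedSectionVars false
set_option linter.unusedSimpArgs false

namespace Cfsg.Agent.Lib.Inv2.CentO

open Module Cfsg.Agent.Lib.Inv2.Core Cfsg.Agent.Lib.Inv2.Group Cfsg.Agent.Lib.Inv2.CentCore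
  Cfsg.Agent.Lib.Inv2.FormCount Cfsg.Agent.Lib.Inv2.FrameCount Cfsg.Agent.Lib.Inv2.CentMain
  Cfsg.Agent.Lib.Inv2.CentSp Cfsg.Agent.Lib.Inv2.Orth Cfsg.Agent.Lib.Inv2.OmegaCount
  Cfsg.Agent.Lib.Witt.Quadratic Cfsg.Agent.Lib.Orth.Refl Cfsg.Agent.Lib.Orth.Gen Cfsg.Agent.Lib.Orth.Spin
  Cfsg.Agent.Lib.Orth.Omega Cfsg.Agent.Lib.Orth.Trans QuadraticMap

variable {F V : Type*} [Field F] [Finite F] [CharP F 2] [AddCommGroup V] [Module F V] [FiniteDimensional F V]
  {Q : QuadraticForm F V}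

local notation "pf" => (polarBilin Q : LinearMap.BilinForm F V)

theorem exists_sqrt (a : F) : ∃ c : F, c ^ 2 = a := by
  have : Function.Surjective (frobenius F 2) := Finite.injective_iff_surjective.mp (frobenius F 2).injective
  obtain ⟨c, hc⟩ := this a
  exact ⟨c, by rw [← hc, frobenius_def]⟩

/-- Values split evenly. -/
theorem value_split {q : ℕ} (hq : Nat.card F = q) (A : Submodule F V) {u₀ : V} (hu : u₀ ∈ A) (hQu : Q u₀ = 1)
    (hp : ∀ v ∈ A, polar Q v u₀ = 0) : Nat.card {v // v ∈ A ∧ Q v = 1} * q = Nat.card A := by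
  classical
  haveI : Finite V := Module.finite_of_finite F
  have h2 : (2 : F) = 0 := two_eq_zero'
  have hQval : ∀ v ∈ A, ∀ c : F, Q (v + c • u₀) = Q v + c ^ 2 := by
    intro v hv c
    rw [Q_add, QuadraticMap.map_smul, hQu, polar_smul_right, hp v hv]
    simp [pow_two]
  rw [← hq, ← Nat.card_prod]
  refine Nat.card_eq_of_bijective (fun p => ⟨p.1.1 + p.2 • u₀, A.add_mem p.1.2.1 (A.smul_mem _ hu)⟩) ⟨?_, ?_⟩
  · rintro ⟨⟨v, hv, hv1⟩, c⟩ ⟨⟨v', hv', hv1'⟩, c'⟩ h
    have h' : v + c • u₀ = v' + c' • u₀ := congrArg Subtype.val h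
    have h3 := congrArg Q h'
    rw [hQval v hv, hQval v' hv', hv1, hv1'] at h3
    have h4 : (c - c') ^ 2 = 0 := by linear_combination h3 + (c' ^ 2 - c * c') * h2
    have h5 : c = c' := sub_eq_zero.mp (pow_eq_zero_iff two_ne_zero |>.mp h4)
    subst h5
    have h6 : v = v' := add_right_cancel h'
    subst h6
    rfl
  · rintro ⟨a, ha⟩
    obtain ⟨c, hc⟩ := exists_sqrt (Q a + 1)
    refine ⟨(⟨a + c • u₀, A.add_mem ha (A.smul_mem _ hu), ?_⟩, c), ?_⟩
    · rw [hQval a ha, hc]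
      linear_combination (Q a) * h2
    · apply Subtype.ext
      show a + c • u₀ + c • u₀ = a
      rw [add_assoc, ← add_smul]
      have : c + c = 0 := by linear_combination c * h2
      rw [this, zero_smul, add_zero]

theorem pf_self (v : V) : pf v v = 0 := by
  have h2 : (2 : F) = 0 := two_eq_zero'
  show polar Q v v = 0
  rw [polar_self_eq, h2, zero_mul]

/-- The frame count in the non-alternating case. -/
theorem card_frames_one (hQ : (polarBilin Q).Nondegenerate) {q n C₀ : ℕ} (hq : Nat.card F = q) (hq2 : 2 ≤ q)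
    (hV : finrank F V = n) (hC₀ : Nat.card {v // Q v = 1} = C₀) (s : ℕ) :
    Nat.card (frames pf (fun v => Q v = 1) (s + 1)) = C₀ * ∏ k ∈ Finset.range s, (q ^ (n - k - 2) - q ^ k) := by
  classical
  haveI : Finite V := Module.finite_of_finite F
  have hS : ∀ a b, pf a b = pf b a := pf_symm
  have hN : ∀ x, (∀ y, pf x y = 0) → x = 0 := hQ.1
  induction s with
  | zero =>
    simp only [Finset.range_zero, Finset.prod_empty, mul_one]
    rw [card_frames_succ hS pf_self (c := C₀)]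
    · haveI : Unique (frames pf (fun v => Q v = 1) 0) :=
        { default := ⟨fun i => i.elim0, linearIndependent_empty_type, fun i => i.elim0, fun i => i.elim0⟩
          uniq := fun b => Subtype.ext (funext fun i => i.elim0) }
      rw [Nat.card_unique, one_mul]
    · intro y hy
      have h1 := card_ext (f := pf) (R := fun v => Q v = 1) (span_le_perp hy.2.1)
      have h2 : Nat.card {v // v ∈ Submodule.span F (Set.range y) ∧ Q v = 1} = 0 := by
        haveI : IsEmpty {v // v ∈ Submodule.span F (Set.range y) ∧ Q v = 1} := by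
          refine ⟨fun ⟨v, h4, h5⟩ => ?_⟩
          have h3 : Set.range y = ∅ := Set.range_eq_empty y
          rw [h3, Submodule.span_empty, Submodule.mem_bot] at h4
          rw [h4, QuadraticMap.map_zero] at h5
          exact zero_ne_one h5
        exact Nat.card_of_isEmpty
      have h3 : Nat.card {v // v ∈ perpFam pf y ∧ Q v = 1} = C₀ := by
        rw [← hC₀]
        apply Nat.card_congr
        apply Equiv.subtypeEquivRight
        intro v
        refine ⟨fun h => h.2, fun h => ⟨mem_perpFam.mpr fun j => j.elim0, h⟩⟩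
      omega
  | succ s ih =>
    rw [card_frames_succ hS pf_self (c := q ^ (n - s - 2) - q ^ s), ih, Finset.prod_range_succ]
    · ring
    rintro y ⟨hy, hT, hR⟩
    have h1 := card_ext (f := pf) (R := fun v => Q v = 1) (span_le_perp hT)
    have hu0 : y 0 ∈ Submodule.span F (Set.range y) := Submodule.subset_span ⟨0, rfl⟩
    have hperp : ∀ v ∈ perpFam pf y, polar Q v (y 0) = 0 := by
      intro v hv
      have := mem_perpFam.mp hv 0
      rw [polar_comm]
      exact this
    have h2 := value_split hq (Submodule.span F (Set.range y)) hu0 (hR 0) (fun v hv => hperp v (span_le_perp hT hv))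
    have h3 := value_split hq (perpFam pf y) (span_le_perp hT hu0) (hR 0) hperp
    rw [card_span hq hy] at h2
    rw [card_perpFam hS hN hq hV hy] at h3
    have hq0 : 0 < q := by omega
    have h4 : Nat.card {v // v ∈ Submodule.span F (Set.range y) ∧ Q v = 1} = q ^ s := by
      apply Nat.eq_of_mul_eq_mul_right hq0
      rw [h2, pow_succ]
    have h5 : Nat.card {v // v ∈ perpFam pf y ∧ Q v = 1} = q ^ (n - s - 2) := by
      apply Nat.eq_of_mul_eq_mul_right hq0
      rw [h3, ← pow_succ]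
      have hne : n - (s + 1) ≠ 0 := by
        intro h0
        rw [h0, pow_zero] at h3
        have : Nat.card {v // v ∈ perpFam pf y ∧ Q v = 1} * q ≠ 1 := by
          intro h6
          have := Nat.eq_one_of_mul_eq_one_left h6
          omega
        exact this h3
      congr 1
      omega
    rw [h4, h5] at h1
    omega

instance finite_isoGroup (Q : QuadraticForm F V) : Finite (isoGroup Q) := by
  haveI : Finite V := Module.finite_of_finite F
  haveI : Finite (V ≃ₗ[F] V) := Finite.of_injective (fun g => (g : V → V)) DFunLike.coe_injective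
  infer_instance

/-- Dual vectors: the Q-value of a member of a normal family. -/
theorem exists_dual {I : Type*} [Fintype I] [DecidableEq I] (hQ : (polarBilin Q).Nondegenerate) {τ : I → I}
    (hτ : Function.Involutive τ) {y : I → V} (hy : LinearIndependent F y) (i : I) :
    ∃ v, normN pf τ y v = y i ∧ pf v (y (τ i)) = 1 := by
  obtain ⟨v, hv⟩ := exists_dual_family (f := pf) pf_symm hQ.1 hy (fun k => if τ k = i then 1 else 0)
  refine ⟨v, ?_, ?_⟩
  · rw [normN_apply]
    simp only [hv, hτ _]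
    simp
  · rw [hv, hτ, if_pos rfl]

/-- The O-count, non-alternating case. -/
theorem o_count_nonalt (hQ : (polarBilin Q).Nondegenerate) {q n C₀ : ℕ} (hq : Nat.card F = q) (hq2 : 2 ≤ q)
    (hV : finrank F V = n) (hC₀ : Nat.card {v // Q v = 1} = C₀)
    (t : isoGroup Q) (t2 : (t : V ≃ₗ[F] V) * (t : V ≃ₗ[F] V) = 1) (hx : ∃ x, pf x (nOf (t : V ≃ₗ[F] V) x) ≠ 0)
    {s : ℕ} (hs : finrank F (LinearMap.range (nOf (t : V ≃ₗ[F] V))) = s + 1) :
    Nat.card (Subgroup.centralizer ({t} : Set (isoGroup Q))) * (C₀ * ∏ k ∈ Finset.range s, (q ^ (n - k - 2) - q ^ k)) =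
      onum q (s + 1) * Nat.card (isoGroup Q) := by
  classical
  have hS : ∀ a b, pf a b = pf b a := pf_symm
  have hN : ∀ x, (∀ y, pf x y = 0) → x = 0 := hQ.1
  have hisoG : ∀ g ∈ isoGroup Q, ∀ a b, pf (g a) (g b) = pf a b := fun g hg a b => polar_eq_of_preserves g hg a b
  have hiso := hisoG t t.2
  obtain ⟨y₀, hy₀, hT, hNf, hyU⟩ := exists_family_nonalt' hS hN t2 hiso hx hs
  obtain ⟨U, hU'⟩ := Submodule.exists_isCompl (LinearMap.ker (nOf (t : V ≃ₗ[F] V)))
  have hU := hU'.symm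
  have h := cent_count (τ := id) hS hN (fun _ => rfl) (isoGroup Q) hisoG t t2 hy₀ hT hNf
    (R := fun v => Q v = 1) (fun i => by
      obtain ⟨u, hu, hu1⟩ := hyU i
      exact f_sq_eq t.2 hu hu1) (fun g hg v hv => by rw [hg v]; exact hv)
    (fun y hy hyT hyQ => witt_family hQ y₀ y hy₀ hy (fun i j => (hT i j).trans (hyT i j).symm) (fun i => by
      obtain ⟨u, hu, hu1⟩ := hyU i
      exact (f_sq_eq t.2 hu hu1).trans (hyQ i).symm))
    (fun y hy i => by
      obtain ⟨v, hv, hv1⟩ := exists_dual (τ := id) hQ (fun _ => rfl) hy.1 i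
      rw [hy.2.2] at hv
      exact f_sq_eq t.2 hv hv1) hU
  rw [card_framesI pf _ (Fintype.card_fin _), card_frames_one hQ hq hq2 hV hC₀,
    card_hypB_id hS hN hq (nOf_adj t2 hiso) hU hx hs] at h
  exact h

/-- Index two in the centraliser. -/
theorem card_rp_split (hQ : (polarBilin Q).Nondegenerate) (hgen : ∀ g ∈ isoGroup Q, g ∈ W Q)
    (t : isoGroup Q) {v : V} (hv : (t : V ≃ₗ[F] V) v = v) (hQv : Q v ≠ 0) :
    Nat.card (Subgroup.centralizer ({t} : Set (isoGroup Q))) =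
      2 * Nat.card {c : Subgroup.centralizer ({t} : Set (isoGroup Q)) // rp (((c : isoGroup Q) : V ≃ₗ[F] V)) = 0} := by
  classical
  have hcomm : refl Q v * (t : V ≃ₗ[F] V) = (t : V ≃ₗ[F] V) * refl Q v := by
    have h3 := conj_refl Q t.2 v
    rw [hv] at h3
    rw [← h3]
    nth_rewrite 1 [← h3]
    group
  let r : Subgroup.centralizer ({t} : Set (isoGroup Q)) := ⟨⟨refl Q v, refl_mem Q v⟩, by
    rw [Subgroup.mem_centralizer_singleton_iff]
    exact Subtype.ext hcomm⟩
  have hrr : r * r = 1 := Subtype.ext (Subtype.ext (refl_mul_self Q v))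
  have hrp : ∀ c : Subgroup.centralizer ({t} : Set (isoGroup Q)),
      rp (((r * c : Subgroup.centralizer ({t} : Set (isoGroup Q))) : isoGroup Q) : V ≃ₗ[F] V) =
        1 + rp (((c : isoGroup Q) : V ≃ₗ[F] V)) := by
    intro c
    have h1 := rp_mul hQ hgen (refl_mem Q v) (c : isoGroup Q).2
    rw [rp_refl hQ hQv] at h1
    exact h1
  have hval : ∀ z : ZMod 2, z ≠ 0 → z = 1 := by decide
  have hadd : ∀ z : ZMod 2, z ≠ 0 → 1 + z = 0 := by decide
  have e : {c : Subgroup.centralizer ({t} : Set (isoGroup Q)) // rp (((c : isoGroup Q) : V ≃ₗ[F] V)) = 0} ≃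
      {c : Subgroup.centralizer ({t} : Set (isoGroup Q)) // ¬ rp (((c : isoGroup Q) : V ≃ₗ[F] V)) = 0} :=
    { toFun := fun c => ⟨r * c.1, by
        rw [hrp, c.2]
        decide⟩
      invFun := fun c => ⟨r * c.1, by
        rw [hrp]
        exact hadd _ c.2⟩
      left_inv := fun c => Subtype.ext (by
        show r * (r * c.1) = c.1
        rw [← mul_assoc, hrr, one_mul])
      right_inv := fun c => Subtype.ext (by
        show r * (r * c.1) = c.1
        rw [← mul_assoc, hrr, one_mul]) }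
  have htot := Nat.card_congr (Equiv.sumCompl (fun c : Subgroup.centralizer ({t} : Set (isoGroup Q)) =>
    rp (((c : isoGroup Q) : V ≃ₗ[F] V)) = 0))
  rw [Nat.card_sum, ← Nat.card_congr e] at htot
  rw [← htot]
  ring

/-- Half the order of `O⁺`. -/
def omh (q m : ℕ) : ℕ := q ^ (m * (m - 1)) * (q ^ m - 1) * ∏ i ∈ Finset.range (m - 1), (q ^ (2 * (i + 1)) - 1)

theorem tri3_succ (j : ℕ) : (3 * (j + 2) ^ 2 - 3 * (j + 2)) / 2 = (3 * (j + 1) ^ 2 - 3 * (j + 1)) / 2 + 3 * (j + 1) := by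
  have h1 : (j + 2) ^ 2 = j * (j + 1) + 3 * j + 4 := by ring
  have h2 : (j + 1) ^ 2 = j * (j + 1) + j + 1 := by ring
  rw [h1, h2]
  generalize j * (j + 1) = a at *
  omega

theorem o_arith {q : ℕ} (hq : 1 ≤ q) (m j : ℕ) (hj : j + 1 ≤ m) :
    q ^ ((3 * (j + 1) ^ 2 - 3 * (j + 1)) / 2) * omh q m =
      q ^ (2 * m * j) * spnum q (m - (j + 1)) *
        (((q ^ m - 1) * q ^ (m - 1)) * ∏ k ∈ Finset.range j, (q ^ (2 * m - k - 2) - q ^ k)) := by
  induction j with
  | zero =>
    obtain ⟨a, rfl⟩ : ∃ a, m = a + 1 := ⟨m - 1, by omega⟩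
    simp only [zero_add, one_pow, mul_one, Nat.sub_self, Nat.zero_div, pow_zero, one_mul, mul_zero,
      Finset.range_zero, Finset.prod_empty, Nat.add_sub_cancel, omh, spnum]
    have : (a + 1) * a = a ^ 2 + a := by ring
    rw [this, pow_add]
    ring
  | succ j ih =>
    have ih' := ih (by omega)
    obtain ⟨b, rfl⟩ : ∃ b, m = j + b + 2 := ⟨m - j - 2, by omega⟩
    have h1 : j + b + 2 - (j + 1) = b + 1 := by omega
    have h2 : j + b + 2 - (j + 1 + 1) = b := by omega
    rw [h1, spnum_succ q b hq] at ih'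
    rw [h2, Finset.prod_range_succ, tri3_succ]
    have hf : q ^ (2 * (j + b + 2) - j - 2) - q ^ j = q ^ j * (q ^ (2 * b + 2) - 1) := by
      have : 2 * (j + b + 2) - j - 2 = j + (2 * b + 2) := by omega
      rw [this, pow_add, Nat.mul_sub, mul_one]
    rw [hf]
    set P := ∏ k ∈ Finset.range j, (q ^ (2 * (j + b + 2) - k - 2) - q ^ k) with hP
    set D := q ^ (2 * b + 2) - 1 with hD
    set C := (q ^ (j + b + 2) - 1) * q ^ (j + b + 2 - 1) with hC
    calc q ^ ((3 * (j + 1) ^ 2 - 3 * (j + 1)) / 2 + 3 * (j + 1)) * omh q (j + b + 2)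
        = q ^ (3 * (j + 1)) * (q ^ ((3 * (j + 1) ^ 2 - 3 * (j + 1)) / 2) * omh q (j + b + 2)) := by
          rw [pow_add]; ring
      _ = q ^ (3 * (j + 1)) * (q ^ (2 * (j + b + 2) * j) * (D * (q ^ (2 * b + 1) * spnum q b)) * (C * P)) := by rw [ih']
      _ = (q ^ (3 * (j + 1)) * q ^ (2 * b + 1) * q ^ (2 * (j + b + 2) * j)) * spnum q b * (C * (P * D)) := by ring
      _ = q ^ (2 * (j + b + 2) * (j + 1)) * spnum q b * (C * (P * (q ^ j * D))) := by
          have : q ^ (3 * (j + 1)) * q ^ (2 * b + 1) * q ^ (2 * (j + b + 2) * j) =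
              q ^ (2 * (j + b + 2) * (j + 1)) * q ^ j := by
            rw [← pow_add, ← pow_add, ← pow_add]
            congr 1
            ring
          rw [this]
          ring

theorem o_final {q m j C Y : ℕ} (hq : 2 ≤ q) (hj : j + 1 ≤ m) {X : ℕ}
    (hX : X = ((q ^ m - 1) * q ^ (m - 1)) * ∏ k ∈ Finset.range j, (q ^ (2 * m - k - 2) - q ^ k))
    (hC : C * X = Y * omh q m) :
    C = q ^ (2 * m * j - (3 * (j + 1) ^ 2 - 3 * (j + 1)) / 2) * Y * spnum q (m - (j + 1)) := by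
  have h1 := o_arith (show 1 ≤ q by omega) m j hj
  rw [← hX] at h1
  have hX0 : 0 < X := by
    rw [hX]
    apply Nat.mul_pos
    · apply Nat.mul_pos
      · have := Nat.pow_lt_pow_right (show 1 < q by omega) (show 0 < m by omega)
        rw [pow_zero] at this
        omega
      · exact pow_pos (by omega) _
    · apply Finset.prod_pos
      intro k hk
      rw [Finset.mem_range] at hk
      have := Nat.pow_lt_pow_right (show 1 < q by omega) (show k < 2 * m - k - 2 by omega)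
      omega
  have hT : (3 * (j + 1) ^ 2 - 3 * (j + 1)) / 2 ≤ 2 * m * j := by
    have h2 : (j + 1) ^ 2 = j * (j + 1) + j + 1 := by ring
    have h3 : j * (j + 1) ≤ m * j := by
      rw [mul_comm]
      exact Nat.mul_le_mul_right _ hj
    have h4 : 2 * m * j = 2 * (m * j) := by ring
    rw [h2, h4]
    generalize j * (j + 1) = a at *
    generalize m * j = b at *
    omega
  have hq0 : 0 < q ^ ((3 * (j + 1) ^ 2 - 3 * (j + 1)) / 2) := pow_pos (by omega) _
  apply Nat.eq_of_mul_eq_mul_right (Nat.mul_pos hX0 hq0)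
  have hE : q ^ (2 * m * j) = q ^ (2 * m * j - (3 * (j + 1) ^ 2 - 3 * (j + 1)) / 2) * q ^ ((3 * (j + 1) ^ 2 - 3 * (j + 1)) / 2) := by
    rw [← pow_add]
    congr 1
    omega
  calc C * (X * q ^ ((3 * (j + 1) ^ 2 - 3 * (j + 1)) / 2)) = (C * X) * q ^ ((3 * (j + 1) ^ 2 - 3 * (j + 1)) / 2) := by ring
    _ = Y * (q ^ ((3 * (j + 1) ^ 2 - 3 * (j + 1)) / 2) * omh q m) := by rw [hC]; ring
    _ = Y * (q ^ (2 * m * j) * spnum q (m - (j + 1)) * X) := by rw [h1]
    _ = _ := by rw [hE]; ring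

section matrix

open Matrix Cfsg Cfsg.Agent.Lib.Orth.Bridge Cfsg.Agent.Lib.Orth.Closure Cfsg.Agent.Lib.Orth.Forms
  Cfsg.Agent.Lib.Inv2.Models Cfsg.Agent.Lib.Inv2.ThreeTrans Cfsg.Agent.Lib.Inv2.Lie2

variable {F : Type*} [Field F] [Fintype F] [CharP F 2] {ι : Type} [Fintype ι] [DecidableEq ι]

/-- The centraliser in `Ω` as a subset of the centraliser in `O`. -/
theorem card_omega_cent (Q : QuadraticForm F (ι → F)) (hQ : (polarBilin Q).Nondegenerate)
    (h : Fintype.card F ≠ 2 ∨ Fintype.card ι ≠ 4) (x : isometryGroup F ⇑Q) :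
    Nat.card {g : ↥(Omega F ⇑Q) // (g : isometryGroup F ⇑Q) * x = x * (g : isometryGroup F ⇑Q)} =
      Nat.card {c : Subgroup.centralizer ({toIso Q x} : Set (isoGroup Q)) // rp (((c : isoGroup Q) : (ι → F) ≃ₗ[F] (ι → F))) = 0} := by
  refine Nat.card_congr
    { toFun := fun g => ⟨⟨toIso Q g.1.1, ?_⟩, ?_⟩
      invFun := fun c => ⟨⟨(toIso Q).symm c.1.1, ?_⟩, ?_⟩
      left_inv := fun g => ?_
      right_inv := fun c => ?_ }
  · rw [Subgroup.mem_centralizer_singleton_iff, ← map_mul, ← map_mul, g.2]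
  · exact (mem_Omega_iff_char_two Q hQ h g.1.1).mp g.1.2
  · rw [mem_Omega_iff_char_two Q hQ h]
    simpa using c.2
  · apply (toIso Q).injective
    rw [map_mul, map_mul, MulEquiv.apply_symm_apply]
    exact Subgroup.mem_centralizer_singleton_iff.mp c.1.2
  · apply Subtype.ext
    apply Subtype.ext
    simp
  · apply Subtype.ext
    apply Subtype.ext
    simp

variable {m : ℕ}

theorem card_iso_plus {q : ℕ} (hF : Fintype.card F = q) (hm : 1 ≤ m) : Nat.card (isoGroup (plusForm m F)) = 2 * omh q m := by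
  rw [← Nat.card_congr (toIso (plusForm m F)).toEquiv]
  have := Cfsg.Agent.S0287.result hF m hm
  rw [omh]
  rw [show (⇑(plusForm m F) : (Fin m ⊕ Fin m → F) → F) = quadFormPlus m F from rfl, this]
  ring

theorem hgen_plus (h : Fintype.card F ≠ 2 ∨ m ≠ 2) : Fintype.card F ≠ 2 ∨ Fintype.card (Fin m ⊕ Fin m) ≠ 4 := by
  rcases h with h | h
  · exact Or.inl h
  · right
    simp
    omega

theorem finrank_Vp : finrank F (Fin m ⊕ Fin m → F) = 2 * m := by
  rw [Module.finrank_fintype_fun_eq_card, Fintype.card_sum, Fintype.card_fin]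
  ring

/-- The centraliser in `Ω`, non-alternating type. -/
theorem mat_nonalt_gen {q : ℕ} (hF : Fintype.card F = q) (Q : QuadraticForm F (ι → F)) (H : Frames Q m m)
    (h : Fintype.card F ≠ 2 ∨ Fintype.card ι ≠ 4) (hO : Nat.card (isoGroup Q) = 2 * omh q m)
    (hC₀ : Nat.card {v // Q v = 1} = (q ^ m - 1) * q ^ (m - 1))
    (x : isometryGroup F ⇑Q) (hx : x ^ 2 = 1) {s : ℕ}
    (hs : (((x : GL ι F) : Matrix ι ι F) - 1).rank = s + 1)
    (hna : ∃ v, polarBilin Q v (nOf (lin Q x) v) ≠ 0) :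
    s + 1 ≤ m ∧ Nat.card {g : ↥(Omega F ⇑Q) // (g : isometryGroup F ⇑Q) * x = x * (g : isometryGroup F ⇑Q)} =
      q ^ (2 * m * s - (3 * (s + 1) ^ 2 - 3 * (s + 1)) / 2) * onum q (s + 1) * spnum q (m - (s + 1)) := by
  classical
  have hq : Nat.card F = q := by rw [Nat.card_eq_fintype_card, hF]
  have hq2 : 2 ≤ q := by rw [← hF]; exact Fintype.one_lt_card
  have hQ : (polarBilin Q).Nondegenerate := H.nd
  have hg := hgen Q hQ h
  have t2 : lin Q x * lin Q x = 1 := by
    rw [← lin_mul, ← pow_two, hx]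
    simp [lin]
  have hr : finrank F (LinearMap.range (nOf (lin Q x))) = s + 1 := by
    rw [← hs]
    exact (rank_sub_one_eq Q x).symm
  have hle : s + 1 ≤ m := by
    have h1 := two_mul_finrank_le t2
    rw [H.hdim, hr] at h1
    omega
  refine ⟨hle, ?_⟩
  have hcount := o_count_nonalt hQ hq hq2 H.hdim hC₀ (toIso Q x) t2 hna hr
  rw [hO] at hcount
  obtain ⟨v, hv, hQv⟩ := exists_nonsing_fixed H (lin_mem Q x) t2 (fun h1 => by
    obtain ⟨v, hv⟩ := hna
    exact hv (h1.2 v))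
  have hsplit := card_rp_split hQ hg (toIso Q x) hv hQv
  rw [card_omega_cent Q hQ h x]
  apply o_final hq2 hle rfl
  rw [hsplit] at hcount
  apply Nat.eq_of_mul_eq_mul_left (show 0 < 2 by norm_num)
  rw [← mul_assoc, hcount]
  ring

theorem card_plus_one {q : ℕ} (hF : Fintype.card F = q) :
    Nat.card {v // plusForm m F v = 1} = (q ^ m - 1) * q ^ (m - 1) := by
  classical
  have := Cfsg.Agent.Lib.Elusive.QuadCount.card_plus_eq hF m (1 : F)
  simp only [one_ne_zero, if_false, zero_add] at this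
  exact this

/-- The statement for the plus form. -/
theorem mat_nonalt_plus {q : ℕ} (hF : Fintype.card F = q) (h : Fintype.card F ≠ 2 ∨ m ≠ 2)
    (x : isometryGroup F (quadFormPlus m F)) (hx : x ^ 2 = 1) {s : ℕ}
    (hs : (((x : GL (Fin m ⊕ Fin m) F) : Matrix (Fin m ⊕ Fin m) (Fin m ⊕ Fin m) F) - 1).rank = s + 1)
    (hna : ∃ v, polarBilin (plusForm m F) v (nOf (lin (plusForm m F) x) v) ≠ 0) :
    s + 1 ≤ m ∧ Nat.card {g : ↥(Omega F (quadFormPlus m F)) // (g : isometryGroup F (quadFormPlus m F)) * x = x * (g : isometryGroup F (quadFormPlus m F))} =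
      q ^ (2 * m * s - (3 * (s + 1) ^ 2 - 3 * (s + 1)) / 2) * onum q (s + 1) * spnum q (m - (s + 1)) := by
  have hm : 1 ≤ m := by
    by_contra h0
    have hm0 : m = 0 := by omega
    subst hm0
    have h3 := Matrix.rank_le_card_width (((x : GL (Fin 0 ⊕ Fin 0) F) : Matrix (Fin 0 ⊕ Fin 0) (Fin 0 ⊕ Fin 0) F) - 1)
    rw [hs] at h3
    simp at h3
  exact mat_nonalt_gen hF (plusForm m F) (frames_plus m) (hgen_plus h) (card_iso_plus hF hm) (card_plus_one hF) x hx hs hna

theorem polar_nOf_eq (Q : QuadraticForm F (ι → F)) (x : isometryGroup F ⇑Q) (v : ι → F) :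
    polarBilin Q v (nOf (lin Q x) v) = Q ((((x : GL ι F) : Matrix ι ι F) - 1) *ᵥ v) := by
  have h1 : ((((x : GL ι F) : Matrix ι ι F) - 1) *ᵥ v) = - nOf (lin Q x) v := by
    rw [nOf_apply, toIso_apply, Matrix.sub_mulVec, Matrix.one_mulVec, neg_sub]
  rw [h1, QuadraticMap.map_neg, Q_nOf (lin_mem Q x)]
  rfl

theorem exists_nonalt_of_odd' (Q : QuadraticForm F (ι → F)) (hQ : (polarBilin Q).Nondegenerate)
    (x : isometryGroup F ⇑Q) (hx : x ^ 2 = 1) {s : ℕ}
    (hs : (((x : GL ι F) : Matrix ι ι F) - 1).rank = s) (hodd : Odd s) :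
    ∃ v, polarBilin Q v (nOf (lin Q x) v) ≠ 0 := by
  by_contra hcon
  push Not at hcon
  have t2 : lin Q x * lin Q x = 1 := by
    rw [← lin_mul, ← pow_two, hx]
    simp [lin]
  obtain ⟨r, hr⟩ := exists_even_of_alt (f := polarBilin Q) pf_symm hQ.1 t2
    (fun a b => polar_eq_of_preserves _ (lin_mem Q x) a b) hcon
  rw [← rank_sub_one_eq Q x, hs] at hr
  subst hr
  exact (Nat.not_even_iff_odd.mpr hodd) (even_two_mul r)

theorem exists_nonalt_of_odd (x : isometryGroup F (quadFormPlus m F)) (hx : x ^ 2 = 1) {s : ℕ}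
    (hs : (((x : GL (Fin m ⊕ Fin m) F) : Matrix (Fin m ⊕ Fin m) (Fin m ⊕ Fin m) F) - 1).rank = s) (hodd : Odd s) :
    ∃ v, polarBilin (plusForm m F) v (nOf (lin (plusForm m F) x) v) ≠ 0 :=
  exists_nonalt_of_odd' (plusForm m F) (plusForm_nondeg m) x hx hs hodd

theorem exists_nonalt_of_na (x : isometryGroup F (quadFormPlus m F))
    (hna : ∃ v : Fin m ⊕ Fin m → F, quadFormPlus m F ((((x : GL (Fin m ⊕ Fin m) F) : Matrix (Fin m ⊕ Fin m) (Fin m ⊕ Fin m) F) - 1) *ᵥ v) ≠ 0) :
    ∃ v, polarBilin (plusForm m F) v (nOf (lin (plusForm m F) x) v) ≠ 0 := by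
  obtain ⟨v, hv⟩ := hna
  exact ⟨v, fun h0 => hv ((polar_nOf_eq (plusForm m F) x v).symm.trans h0)⟩

theorem rank_pos_of_na (x : isometryGroup F (quadFormPlus m F))
    (hna : ∃ v : Fin m ⊕ Fin m → F, quadFormPlus m F ((((x : GL (Fin m ⊕ Fin m) F) : Matrix (Fin m ⊕ Fin m) (Fin m ⊕ Fin m) F) - 1) *ᵥ v) ≠ 0) :
    1 ≤ (((x : GL (Fin m ⊕ Fin m) F) : Matrix (Fin m ⊕ Fin m) (Fin m ⊕ Fin m) F) - 1).rank := by
  by_contra h0
  have h1 : (((x : GL (Fin m ⊕ Fin m) F) : Matrix (Fin m ⊕ Fin m) (Fin m ⊕ Fin m) F) - 1).rank = 0 := by omega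
  have h2 : LinearMap.range (((x : GL (Fin m ⊕ Fin m) F) : Matrix (Fin m ⊕ Fin m) (Fin m ⊕ Fin m) F) - 1).mulVecLin = ⊥ :=
    Submodule.finrank_eq_zero.mp h1
  obtain ⟨v, hv⟩ := hna
  apply hv
  have h3 : (((x : GL (Fin m ⊕ Fin m) F) : Matrix (Fin m ⊕ Fin m) (Fin m ⊕ Fin m) F) - 1).mulVecLin v ∈
      LinearMap.range (((x : GL (Fin m ⊕ Fin m) F) : Matrix (Fin m ⊕ Fin m) (Fin m ⊕ Fin m) F) - 1).mulVecLin := ⟨v, rfl⟩
  rw [h2, Submodule.mem_bot, Matrix.mulVecLin_apply] at h3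
  rw [h3]
  simp [quadFormPlus]

end matrix

end Cfsg.Agent.Lib.Inv2.CentO
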