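import Mathlib
import Cfsg.Agent.Lib.Inv2.CentO

/-!
# Centralisers of involutions of type `a_s` in `O⁺_{2m}(q)` and `Ω⁺_{2m}(q)`, `q` even
-/

set_option autoImplicit false
set_option linter.unusedSectionVars false
set_option linter.unusedSimpArgs false

namespace Cfsg.Agent.Lib.Inv2.CentOAlt

open Module Cfsg Matrix Cfsg.Agent.Lib.Inv2.Core Cfsg.Agent.Lib.Inv2.Group Cfsg.Agent.Lib.Inv2.CentCore
  Cfsg.Agent.Lib.Inv2.FormCount Cfsg.Agent.Lib.Inv2.FrameCount Cfsg.Agent.Lib.Inv2.CentMain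
  Cfsg.Agent.Lib.Inv2.CentSp Cfsg.Agent.Lib.Inv2.Orth Cfsg.Agent.Lib.Inv2.OmegaCount
  Cfsg.Agent.Lib.Witt.Quadratic Cfsg.Agent.Lib.Orth.Refl Cfsg.Agent.Lib.Orth.Gen Cfsg.Agent.Lib.Orth.Spin
  Cfsg.Agent.Lib.Orth.Omega Cfsg.Agent.Lib.Orth.Trans Cfsg.Agent.Lib.Inv2.CentO QuadraticMap
  Cfsg.Agent.Lib.Orth.Bridge Cfsg.Agent.Lib.Orth.Closure Cfsg.Agent.Lib.Orth.Forms
  Cfsg.Agent.Lib.Inv2.Models Cfsg.Agent.Lib.Inv2.ThreeTrans Cfsg.Agent.Lib.Inv2.Lie2
  Cfsg.Agent.Lib.QuadFn.MaxSingular Cfsg.Agent.Lib.Orth.Parity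

section count

variable {F : Type*} [Field F] [Fintype F]

/-- Singular vectors perpendicular to the first `k` basis vectors. -/
def SzSet (F : Type*) [Field F] (m k : ℕ) : Set (Fin m ⊕ Fin m → F) :=
  {v | (∀ j : Fin m, (j : ℕ) < k → v (Sum.inr j) = 0) ∧ quadFormPlus m F v = 0}

theorem card_SzSet_succ {q : ℕ} (hF : Fintype.card F = q) (m k : ℕ) :
    Nat.card (SzSet F (m + 1) (k + 1)) = q * Nat.card (SzSet F m k) := by
  have hq : Nat.card F = q := by rw [Nat.card_eq_fintype_card, hF]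
  rw [← hq, ← Nat.card_prod]
  refine Nat.card_congr
    { toFun := fun v => (v.1 (Sum.inl 0), ⟨Sum.elim (fun j => v.1 (Sum.inl j.succ)) (fun j => v.1 (Sum.inr j.succ)), ?_, ?_⟩)
      invFun := fun p => ⟨Sum.elim (Fin.cons p.1 (fun j => p.2.1 (Sum.inl j))) (Fin.cons 0 (fun j => p.2.1 (Sum.inr j))), ?_, ?_⟩
      left_inv := fun v => ?_
      right_inv := fun p => ?_ }
  · intro j hj
    simp only [Sum.elim_inr]
    exact v.2.1 j.succ (by simpa using hj)
  · have h0 : v.1 (Sum.inr 0) = 0 := v.2.1 0 (by simp)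
    have h1 := v.2.2
    simp only [quadFormPlus] at h1 ⊢
    rw [Fin.sum_univ_succ, h0, mul_zero, zero_add] at h1
    simpa using h1
  · intro j
    refine Fin.cases ?_ (fun j => ?_) j
    · simp
    · intro hj
      simp only [Sum.elim_inr, Fin.cons_succ]
      exact p.2.2.1 j (by simpa using hj)
  · have h1 := p.2.2.2
    simp only [quadFormPlus] at h1 ⊢
    rw [Fin.sum_univ_succ]
    simpa using h1
  · apply Subtype.ext
    funext i
    have h0 : v.1 (Sum.inr 0) = 0 := v.2.1 0 (by simp)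
    rcases i with i | i <;> refine Fin.cases ?_ (fun j => ?_) i <;> simp [h0]
  · obtain ⟨a, v, hv⟩ := p
    refine Prod.ext rfl (Subtype.ext ?_)
    funext i
    rcases i with i | i <;> simp

theorem card_SzSet_zero {q : ℕ} (hF : Fintype.card F = q) (m : ℕ) :
    Nat.card (SzSet F m 0) = q ^ m + (q ^ m - 1) * q ^ (m - 1) := by
  classical
  have := Cfsg.Agent.Lib.Elusive.QuadCount.card_plus_eq hF m (0 : F)
  simp only [if_true] at this
  rw [← this]
  apply Nat.card_congr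
  apply Equiv.subtypeEquivRight
  intro v
  constructor
  · intro h
    exact h.2
  · intro h
    exact ⟨fun j hj => absurd hj (Nat.not_lt_zero _), h⟩

theorem card_SzSet {q : ℕ} (hF : Fintype.card F = q) (k : ℕ) : ∀ m, k ≤ m →
    Nat.card (SzSet F m k) = q ^ k * (q ^ (m - k) + (q ^ (m - k) - 1) * q ^ (m - k - 1)) := by
  induction k with
  | zero =>
    intro m _
    simpa using card_SzSet_zero hF m
  | succ k ih =>
    intro m hm
    obtain ⟨m, rfl⟩ : ∃ m', m = m' + 1 := ⟨m - 1, by omega⟩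
    rw [card_SzSet_succ hF, ih m (by omega)]
    have h1 : m + 1 - (k + 1) = m - k := by omega
    rw [h1, pow_succ]
    ring

end count

section arith

/-- The number of singular extensions. -/
def cA (q m k : ℕ) : ℕ := q ^ k * ((q ^ (m - k) - 1) * (q ^ (m - k - 1) + 1))

/-- The order of `O⁺_{2n}(q)`. -/
def gnum (q : ℕ) : ℕ → ℕ
  | 0 => 1
  | (n + 1) => q ^ (2 * n) * ((q ^ (n + 1) - 1) * (q ^ n + 1)) * gnum q n

theorem gnum_eq {q : ℕ} (hq : 1 ≤ q) (n : ℕ) : gnum q (n + 1) = 2 * omh q (n + 1) := by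
  induction n with
  | zero => simp [gnum, omh]; ring
  | succ n ih =>
    rw [gnum, ih, omh, omh]
    simp only [Nat.add_sub_cancel]
    rw [Finset.prod_range_succ]
    have h1 : 1 ≤ q ^ (n + 1) := Nat.one_le_pow _ _ hq
    obtain ⟨a, ha⟩ : ∃ a, q ^ (n + 1) = a + 1 := ⟨q ^ (n + 1) - 1, by omega⟩
    have h2 : q ^ (2 * (n + 1)) - 1 = a * (a + 2) := by
      have : q ^ (2 * (n + 1)) = (a + 1) * (a + 1) := by
        rw [two_mul, pow_add, ha]
      rw [this]
      have : (a + 1) * (a + 1) = a * (a + 2) + 1 := by ring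
      omega
    rw [h2, ha]
    simp only [Nat.add_sub_cancel]
    have h3 : (n + 1 + 1) * (n + 1) = 2 * (n + 1) + (n + 1) * n := by ring
    rw [h3, pow_add]
    ring

theorem tri5_succ (s : ℕ) : (3 * (s + 1) ^ 2 + (s + 1)) / 2 = (3 * s ^ 2 + s) / 2 + 3 * s + 2 := by
  have h1 : (s + 1) ^ 2 = s ^ 2 + 2 * s + 1 := by ring
  rw [h1]
  generalize s ^ 2 = a at *
  omega

theorem alt_arith {q : ℕ} (m s : ℕ) (hs : s ≤ m) :
    q ^ ((3 * s ^ 2 + s) / 2) * gnum q m = q ^ (2 * m * s) * gnum q (m - s) * ∏ k ∈ Finset.range s, cA q m k := by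
  induction s with
  | zero => simp
  | succ s ih =>
    have ih' := ih (by omega)
    obtain ⟨b, rfl⟩ : ∃ b, m = s + b + 1 := ⟨m - s - 1, by omega⟩
    have h1 : s + b + 1 - s = b + 1 := by omega
    have h2 : s + b + 1 - (s + 1) = b := by omega
    rw [h1, show gnum q (b + 1) = q ^ (2 * b) * ((q ^ (b + 1) - 1) * (q ^ b + 1)) * gnum q b from rfl] at ih'
    rw [h2, Finset.prod_range_succ, tri5_succ]
    have h3 : cA q (s + b + 1) s = q ^ s * ((q ^ (b + 1) - 1) * (q ^ b + 1)) := by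
      rw [cA, h1]
      simp
    rw [h3]
    set P := ∏ k ∈ Finset.range s, cA q (s + b + 1) k with hP
    set D := (q ^ (b + 1) - 1) * (q ^ b + 1) with hD
    calc q ^ ((3 * s ^ 2 + s) / 2 + 3 * s + 2) * gnum q (s + b + 1)
        = q ^ (3 * s + 2) * (q ^ ((3 * s ^ 2 + s) / 2) * gnum q (s + b + 1)) := by
          rw [add_assoc, pow_add]; ring
      _ = q ^ (3 * s + 2) * (q ^ (2 * (s + b + 1) * s) * (q ^ (2 * b) * D * gnum q b) * P) := by rw [ih']
      _ = (q ^ (3 * s + 2) * q ^ (2 * b) * q ^ (2 * (s + b + 1) * s)) * gnum q b * (P * D) := by ring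
      _ = q ^ (2 * (s + b + 1) * (s + 1)) * gnum q b * (P * (q ^ s * D)) := by
          have : q ^ (3 * s + 2) * q ^ (2 * b) * q ^ (2 * (s + b + 1) * s) =
              q ^ (2 * (s + b + 1) * (s + 1)) * q ^ s := by
            rw [← pow_add, ← pow_add, ← pow_add]
            congr 1
            ring
          rw [this]
          ring

theorem alt_final {q m s C Y : ℕ} (hq : 2 ≤ q) (hs : s ≤ m) {X : ℕ}
    (hX : X = ∏ k ∈ Finset.range s, cA q m k) (hC : C * X = Y * gnum q m) :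
    C = q ^ (2 * m * s - (3 * s ^ 2 + s) / 2) * Y * gnum q (m - s) := by
  have h1 := alt_arith (q := q) m s hs
  rw [← hX] at h1
  have hX0 : 0 < X := by
    rw [hX]
    apply Finset.prod_pos
    intro k hk
    rw [Finset.mem_range] at hk
    have := Nat.pow_lt_pow_right (show 1 < q by omega) (show 0 < m - k by omega)
    rw [pow_zero] at this
    rw [cA]
    apply Nat.mul_pos (pow_pos (by omega) _)
    apply Nat.mul_pos (by omega)
    omega
  have hT : (3 * s ^ 2 + s) / 2 ≤ 2 * m * s := by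
    have h2 : s ^ 2 ≤ m * s := by nlinarith
    have h3 : s ≤ s ^ 2 := Nat.le_self_pow (by norm_num) s
    have h4 : 2 * m * s = 2 * (m * s) := by ring
    rw [h4]
    omega
  have hq0 : 0 < q ^ ((3 * s ^ 2 + s) / 2) := pow_pos (by omega) _
  apply Nat.eq_of_mul_eq_mul_right (Nat.mul_pos hX0 hq0)
  have hE : q ^ (2 * m * s) = q ^ (2 * m * s - (3 * s ^ 2 + s) / 2) * q ^ ((3 * s ^ 2 + s) / 2) := by
    rw [← pow_add]
    congr 1
    omega
  calc C * (X * q ^ ((3 * s ^ 2 + s) / 2)) = (C * X) * q ^ ((3 * s ^ 2 + s) / 2) := by ring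
    _ = Y * (q ^ ((3 * s ^ 2 + s) / 2) * gnum q m) := by rw [hC]; ring
    _ = Y * (q ^ (2 * m * s) * gnum q (m - s) * X) := by rw [h1]
    _ = _ := by rw [hE]; ring

end arith

section general

variable {F V : Type*} [Field F] [Finite F] [CharP F 2] [AddCommGroup V] [Module F V] [FiniteDimensional F V]
  {Q : QuadraticForm F V}

local notation "pf" => (polarBilin Q : LinearMap.BilinForm F V)

/-- The O-count, alternating case. -/
theorem o_count_alt (hQ : (polarBilin Q).Nondegenerate) {q : ℕ} (hq : Nat.card F = q)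
    (t : isoGroup Q) (t2 : (t : V ≃ₗ[F] V) * (t : V ≃ₗ[F] V) = 1) (hx : ∀ x, pf x (nOf (t : V ≃ₗ[F] V) x) = 0)
    {r : ℕ} (hs : finrank F (LinearMap.range (nOf (t : V ≃ₗ[F] V))) = 2 * (r + 1)) :
    Nat.card (Subgroup.centralizer ({t} : Set (isoGroup Q))) * Nat.card (frames pf (fun v => Q v = 0) (2 * (r + 1))) =
      spnum q (r + 1) * Nat.card (isoGroup Q) := by
  classical
  have hS : ∀ a b, pf a b = pf b a := pf_symm
  have hN : ∀ x, (∀ y, pf x y = 0) → x = 0 := hQ.1
  have hisoG : ∀ g ∈ isoGroup Q, ∀ a b, pf (g a) (g b) = pf a b := fun g hg a b => polar_eq_of_preserves g hg a b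
  have hiso := hisoG t t.2
  obtain ⟨y₀, hy₀, hT, hNf⟩ := exists_family_alt' hS hN t2 hiso hx hs
  obtain ⟨U, hU'⟩ := Submodule.exists_isCompl (LinearMap.ker (nOf (t : V ≃ₗ[F] V)))
  have hU := hU'.symm
  haveI : Nonempty (Fin (r + 1) ⊕ Fin (r + 1)) := ⟨Sum.inl 0⟩
  have hQ0 : ∀ y : Fin (r + 1) ⊕ Fin (r + 1) → V, LinearIndependent F y →
      (∀ v, normN pf Sum.swap y v = nOf (t : V ≃ₗ[F] V) v) → ∀ i, Q (y i) = 0 := by
    intro y hy hyN i
    obtain ⟨v, hv, -⟩ := exists_dual (τ := Sum.swap) hQ Sum.swap_swap hy i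
    rw [hyN] at hv
    rw [← hv, Q_nOf t.2]
    exact hx v
  have h := cent_count (τ := Sum.swap) hS hN Sum.swap_swap (isoGroup Q) hisoG t t2 hy₀ hT hNf
    (R := fun v => Q v = 0) (hQ0 y₀ hy₀ (fun v => (hNf v).symm)) (fun g hg v hv => by rw [hg v]; exact hv)
    (fun y hy hyT hyQ => witt_family hQ y₀ y hy₀ hy (fun i j => (hT i j).trans (hyT i j).symm) (fun i => by
      rw [hQ0 y₀ hy₀ (fun v => (hNf v).symm) i, hyQ i]))
    (fun y hy i => hQ0 y hy.1 hy.2.2 i) hU
  have hc : Fintype.card (Fin (r + 1) ⊕ Fin (r + 1)) = 2 * (r + 1) := by simp; ring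
  rw [card_framesI pf _ hc, card_hypB_swap hS hN hq (nOf_adj t2 hiso) hU hx hs] at h
  exact h

/-- In the split case the centraliser lies in the kernel of the parity. -/
theorem rp_of_split {m : ℕ} (hQ : (polarBilin Q).Nondegenerate) (hgen : ∀ g ∈ isoGroup Q, g ∈ W Q)
    (hdim : finrank F V = 2 * m) (t : isoGroup Q) (hx : ∀ x, pf x (nOf (t : V ≃ₗ[F] V) x) = 0)
    (hs : finrank F (LinearMap.range (nOf (t : V ≃ₗ[F] V))) = m)
    (c : Subgroup.centralizer ({t} : Set (isoGroup Q))) : rp (((c : isoGroup Q) : V ≃ₗ[F] V)) = 0 := by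
  have hL := ts_range t.2 hx
  have h1 := par_map hQ hgen hdim hL hs hL hs (c : isoGroup Q).2
  have hc : (c : isoGroup Q) * t = t * c := Subgroup.mem_centralizer_singleton_iff.mp c.2
  have hc' : ∀ v, ((c : isoGroup Q) : V ≃ₗ[F] V) ((t : V ≃ₗ[F] V) v) = (t : V ≃ₗ[F] V) (((c : isoGroup Q) : V ≃ₗ[F] V) v) := by
    intro v
    exact congrArg (fun a : isoGroup Q => (a : V ≃ₗ[F] V) v) hc
  have hmap : (LinearMap.range (nOf (t : V ≃ₗ[F] V))).map (((c : isoGroup Q) : V ≃ₗ[F] V) : V →ₗ[F] V) =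
      LinearMap.range (nOf (t : V ≃ₗ[F] V)) := by
    apply Submodule.eq_of_le_of_finrank_eq
    · rintro _ ⟨_, ⟨v, rfl⟩, rfl⟩
      refine ⟨((c : isoGroup Q) : V ≃ₗ[F] V) v, ?_⟩
      simp [hc']
    · exact LinearEquiv.finrank_map_eq _ _
  rw [hmap, par_self hQ hgen hs, add_zero] at h1
  exact h1.symm

end general

section plus

variable {F : Type*} [Field F] [Fintype F] [CharP F 2] {m : ℕ}

/-- The standard totally singular frame. -/
def eStd (F : Type*) [Field F] {m k : ℕ} (hk : k ≤ m) : Fin k → (Fin m ⊕ Fin m → F) :=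
  fun i => Pi.single (Sum.inl (Fin.castLE hk i)) 1

theorem eStd_li {k : ℕ} (hk : k ≤ m) : LinearIndependent F (eStd F hk) := by
  have h := (Pi.basisFun F (Fin m ⊕ Fin m)).linearIndependent
  have h2 := h.comp (fun i : Fin k => Sum.inl (Fin.castLE hk i)) (fun a b hab => by
    simpa using hab)
  convert h2 using 1
  funext i
  simp [eStd]

theorem eStd_polar {k : ℕ} (hk : k ≤ m) (i : Fin k) (v : Fin m ⊕ Fin m → F) :
    polar (plusForm m F) (eStd F hk i) v = v (Sum.inr (Fin.castLE hk i)) := by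
  classical
  rw [polar_plus]
  simp only [eStd]
  have hz : ∀ j, (Pi.single (Sum.inl (Fin.castLE hk i)) 1 : Fin m ⊕ Fin m → F) (Sum.inr j) = 0 := by
    intro j
    simp
  simp only [hz, mul_zero, add_zero]
  rw [Finset.sum_eq_single (Fin.castLE hk i)]
  · simp
  · intro b _ hb
    have : (Pi.single (Sum.inl (Fin.castLE hk i)) 1 : Fin m ⊕ Fin m → F) (Sum.inl b) = 0 := by
      simp [hb]
    rw [this, zero_mul]
  · simp

theorem eStd_Q {k : ℕ} (hk : k ≤ m) (i : Fin k) : plusForm m F (eStd F hk i) = 0 := by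
  classical
  show quadFormPlus m F _ = 0
  simp only [quadFormPlus, eStd]
  refine Finset.sum_eq_zero fun j _ => ?_
  simp

theorem mem_perp_std {k : ℕ} (hk : k ≤ m) (v : Fin m ⊕ Fin m → F) :
    v ∈ perpFam (polarBilin (plusForm m F)) (eStd F hk) ↔ ∀ j : Fin m, (j : ℕ) < k → v (Sum.inr j) = 0 := by
  rw [mem_perpFam]
  constructor
  · intro h j hj
    have := h ⟨j, hj⟩
    rw [show polarBilin (plusForm m F) (eStd F hk ⟨j, hj⟩) v = polar (plusForm m F) (eStd F hk ⟨j, hj⟩) v from rfl, eStd_polar] at this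
    exact this
  · intro h i
    show polar (plusForm m F) (eStd F hk i) v = 0
    rw [eStd_polar]
    exact h _ (by simp)

/-- Frames have at most `m` members. -/
theorem frames_le {k : ℕ} {y : Fin k → (Fin m ⊕ Fin m → F)}
    (hy : y ∈ frames (polarBilin (plusForm m F)) (fun v => plusForm m F v = 0) k) : k ≤ m := by
  have hts := ts_span (Q := plusForm m F) hy.2.2 hy.2.1
  have S := qspace (plusForm_nondeg m (F := F))
  have h1 := S.finrank_ts_le finrank_Vp hts
  rw [finrank_span_eq_card hy.1] at h1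
  simpa using h1

/-- The number of extensions of a frame. -/
theorem card_ext_alt {q : ℕ} (hF : Fintype.card F = q) {k : ℕ} {y : Fin k → (Fin m ⊕ Fin m → F)}
    (hy : y ∈ frames (polarBilin (plusForm m F)) (fun v => plusForm m F v = 0) k) :
    Nat.card (FrameCount.ext (polarBilin (plusForm m F)) (fun v => plusForm m F v = 0) y) = cA q m k := by
  classical
  have hq : Nat.card F = q := by rw [Nat.card_eq_fintype_card, hF]
  have hk := frames_le hy
  have hq2 : 2 ≤ q := by rw [← hF]; exact Fintype.one_lt_card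
  obtain ⟨hyL, hT, hR⟩ := hy
  have h1 := card_ext (f := polarBilin (plusForm m F)) (R := fun v => plusForm m F v = 0) (span_le_perp hT)
  have hts := ts_span (Q := plusForm m F) hR hT
  have h2 : Nat.card {v // v ∈ Submodule.span F (Set.range y) ∧ plusForm m F v = 0} = q ^ k := by
    rw [← card_span hq hyL]
    apply Nat.card_congr
    apply Equiv.subtypeEquivRight
    intro v
    exact ⟨fun h => h.1, fun h => ⟨h, hts v h⟩⟩
  obtain ⟨σ, hσ, hσy⟩ := witt_family (plusForm_nondeg m (F := F)) y (eStd F hk) hyL (eStd_li hk)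
    (fun i j => by
      have h3 : polar (plusForm m F) (y i) (y j) = 0 := hT i j
      rw [h3, eStd_polar]
      simp [eStd])
    (fun i => by rw [hR, eStd_Q])
  have h3 : Nat.card {v // v ∈ perpFam (polarBilin (plusForm m F)) y ∧ plusForm m F v = 0} = Nat.card (SzSet F m k) := by
    refine Nat.card_congr (σ.toEquiv.subtypeEquiv fun v => ?_)
    have h4 : plusForm m F (σ v) = plusForm m F v := hσ v
    have h5 : quadFormPlus m F (σ v) = plusForm m F v := h4
    have h7 : ∀ j, polarBilin (plusForm m F) (σ (y j)) (σ v) = polarBilin (plusForm m F) (y j) v :=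
      fun j => polar_eq_of_preserves σ hσ (y j) v
    constructor
    · rintro ⟨ha, hb⟩
      refine ⟨(mem_perp_std hk (σ v)).mp ?_, h5.trans hb⟩
      rw [mem_perpFam]
      intro j
      rw [← hσy j]
      exact (h7 j).trans (mem_perpFam.mp ha j)
    · rintro ⟨ha, hb⟩
      have ha' := (mem_perp_std hk (σ v)).mpr ha
      refine ⟨mem_perpFam.mpr fun j => ?_, h5.symm.trans hb⟩
      rw [← h7 j, hσy j]
      exact mem_perpFam.mp ha' j
  rw [h2, h3, card_SzSet hF k m hk] at h1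
  have ha : 1 ≤ q ^ (m - k) := Nat.one_le_pow _ _ (by omega)
  obtain ⟨a, ha'⟩ : ∃ a, q ^ (m - k) = a + 1 := ⟨q ^ (m - k) - 1, by omega⟩
  rw [cA, ha']
  rw [ha'] at h1
  simp only [Nat.add_sub_cancel] at h1 ⊢
  have h8 : q ^ k * (a + 1 + a * q ^ (m - k - 1)) = q ^ k * (a * (q ^ (m - k - 1) + 1)) + q ^ k := by ring
  omega

theorem card_frames_alt {q : ℕ} (hF : Fintype.card F = q) (s : ℕ) :
    Nat.card (frames (polarBilin (plusForm m F)) (fun v => plusForm m F v = 0) s) =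
      ∏ k ∈ Finset.range s, cA q m k := by
  classical
  haveI : Finite (Fin m ⊕ Fin m → F) := inferInstance
  induction s with
  | zero =>
    simp only [Finset.range_zero, Finset.prod_empty]
    haveI : Unique (frames (polarBilin (plusForm m F)) (fun v => plusForm m F v = 0) 0) :=
      { default := ⟨fun i => i.elim0, linearIndependent_empty_type, fun i => i.elim0, fun i => i.elim0⟩
        uniq := fun b => Subtype.ext (funext fun i => i.elim0) }
    exact Nat.card_unique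
  | succ s ih =>
    rw [card_frames_succ pf_symm pf_self (c := cA q m s), ih, Finset.prod_range_succ]
    intro y hy
    exact card_ext_alt hF hy

theorem card_iso_gnum {q : ℕ} (hF : Fintype.card F = q) (hm : 1 ≤ m) : Nat.card (isoGroup (plusForm m F)) = gnum q m := by
  obtain ⟨n, rfl⟩ : ∃ n, m = n + 1 := ⟨m - 1, by omega⟩
  rw [card_iso_plus hF hm, gnum_eq (by rw [← hF]; exact Fintype.card_pos)]

end plus

section gen

variable {F : Type*} [Field F] [Fintype F] [CharP F 2] {ι : Type} [Fintype ι] [DecidableEq ι] {m : ℕ}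

/-- The centraliser in `Ω`, alternating type. -/
theorem mat_alt_gen {q : ℕ} (hF : Fintype.card F = q) (Q : QuadraticForm F (ι → F)) (H : Frames Q m m)
    (h : Fintype.card F ≠ 2 ∨ Fintype.card ι ≠ 4) (hO : Nat.card (isoGroup Q) = gnum q m)
    (hX : ∀ s, Nat.card (frames (polarBilin Q) (fun v => Q v = 0) s) = ∏ k ∈ Finset.range s, cA q m k)
    (x : isometryGroup F ⇑Q) (hx : x ^ 2 = 1) {r : ℕ}
    (hs : (((x : GL ι F) : Matrix ι ι F) - 1).rank = 2 * (r + 1))
    (halt : ∀ v, polarBilin Q v (nOf (lin Q x) v) = 0) :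
    2 * (r + 1) ≤ m ∧ Nat.card {g : ↥(Omega F ⇑Q) // (g : isometryGroup F ⇑Q) * x = x * (g : isometryGroup F ⇑Q)} =
      q ^ (2 * m * (2 * (r + 1)) - (3 * (2 * (r + 1)) ^ 2 + 2 * (r + 1)) / 2) * spnum q (r + 1) *
        (if 2 * (r + 1) = m then 1 else omh q (m - 2 * (r + 1))) := by
  classical
  have hq : Nat.card F = q := by rw [Nat.card_eq_fintype_card, hF]
  have hq2 : 2 ≤ q := by rw [← hF]; exact Fintype.one_lt_card
  have hQ : (polarBilin Q).Nondegenerate := H.nd
  have hg := hgen Q hQ h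
  have t2 : lin Q x * lin Q x = 1 := by
    rw [← lin_mul, ← pow_two, hx]
    simp [lin]
  have hr : finrank F (LinearMap.range (nOf (lin Q x))) = 2 * (r + 1) := by
    rw [← hs]
    exact (rank_sub_one_eq Q x).symm
  have hle : 2 * (r + 1) ≤ m := by
    have h1 := two_mul_finrank_le t2
    rw [H.hdim, hr] at h1
    omega
  refine ⟨hle, ?_⟩
  have hcount := o_count_alt (q := q) hQ hq (toIso Q x) t2 halt hr
  rw [hO, hX] at hcount
  have hC := alt_final hq2 hle rfl hcount
  rw [card_omega_cent Q hQ h x]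
  by_cases hm : 2 * (r + 1) = m
  · rw [if_pos hm, mul_one]
    have hall : Nat.card {c : Subgroup.centralizer ({toIso Q x} : Set (isoGroup Q)) // rp (((c : isoGroup Q) : (ι → F) ≃ₗ[F] (ι → F))) = 0} =
        Nat.card (Subgroup.centralizer ({toIso Q x} : Set (isoGroup Q))) := by
      apply Nat.card_congr
      exact Equiv.subtypeUnivEquiv (rp_of_split hQ hg H.hdim (toIso Q x) halt (hr.trans hm))
    rw [hall, hC]
    have : m - 2 * (r + 1) = 0 := by omega
    rw [this]
    simp [gnum]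
  · rw [if_neg hm]
    obtain ⟨v, hv, hQv⟩ := exists_nonsing_fixed H (lin_mem Q x) t2 (fun h1 => hm (hr.symm.trans h1.1))
    have hsplit := card_rp_split hQ hg (toIso Q x) hv hQv
    obtain ⟨n, hn⟩ : ∃ n, m - 2 * (r + 1) = n + 1 := ⟨m - 2 * (r + 1) - 1, by omega⟩
    rw [hC, hn, gnum_eq (by omega)] at hsplit
    rw [hn]
    apply Nat.eq_of_mul_eq_mul_left (show 0 < 2 by norm_num)
    rw [← hsplit]
    ring

/-- The statement for the plus form. -/
theorem mat_alt_plus {q : ℕ} (hF : Fintype.card F = q) (h : Fintype.card F ≠ 2 ∨ m ≠ 2)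
    (x : isometryGroup F (quadFormPlus m F)) (hx : x ^ 2 = 1) {r : ℕ}
    (hs : (((x : GL (Fin m ⊕ Fin m) F) : Matrix (Fin m ⊕ Fin m) (Fin m ⊕ Fin m) F) - 1).rank = 2 * (r + 1))
    (halt : ∀ v : Fin m ⊕ Fin m → F, quadFormPlus m F ((((x : GL (Fin m ⊕ Fin m) F) : Matrix (Fin m ⊕ Fin m) (Fin m ⊕ Fin m) F) - 1) *ᵥ v) = 0) :
    2 * (r + 1) ≤ m ∧ Nat.card {g : ↥(Omega F (quadFormPlus m F)) // (g : isometryGroup F (quadFormPlus m F)) * x = x * (g : isometryGroup F (quadFormPlus m F))} =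
      q ^ (2 * m * (2 * (r + 1)) - (3 * (2 * (r + 1)) ^ 2 + 2 * (r + 1)) / 2) * spnum q (r + 1) *
        (if 2 * (r + 1) = m then 1 else omh q (m - 2 * (r + 1))) := by
  have hm : 1 ≤ m := by
    by_contra h0
    have hm0 : m = 0 := by omega
    subst hm0
    have h3 := Matrix.rank_le_card_width (((x : GL (Fin 0 ⊕ Fin 0) F) : Matrix (Fin 0 ⊕ Fin 0) (Fin 0 ⊕ Fin 0) F) - 1)
    rw [hs] at h3
    simp at h3
  exact mat_alt_gen hF (plusForm m F) (frames_plus m) (hgen_plus h) (card_iso_gnum hF hm) (card_frames_alt hF) x hx hs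
    (fun v => (polar_nOf_eq (plusForm m F) x v).trans (halt v))

theorem rank_pos_of_ne' (x : isometryGroup F (quadFormPlus m F)) (hx1 : x ≠ 1) :
    1 ≤ (((x : GL (Fin m ⊕ Fin m) F) : Matrix (Fin m ⊕ Fin m) (Fin m ⊕ Fin m) F) - 1).rank := by
  have h1 := rank_sub_one_eq (plusForm m F) x
  have h2 : ((x : GL (Fin m ⊕ Fin m) F) : Matrix (Fin m ⊕ Fin m) (Fin m ⊕ Fin m) F) - 1 ≠ 0 := by
    intro h0
    apply hx1
    apply Subtype.ext
    apply Units.ext
    exact sub_eq_zero.mp h0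
  by_contra h0
  have h3 : (((x : GL (Fin m ⊕ Fin m) F) : Matrix (Fin m ⊕ Fin m) (Fin m ⊕ Fin m) F) - 1).rank = 0 := by omega
  have h4 : LinearMap.range (((x : GL (Fin m ⊕ Fin m) F) : Matrix (Fin m ⊕ Fin m) (Fin m ⊕ Fin m) F) - 1).mulVecLin = ⊥ :=
    Submodule.finrank_eq_zero.mp h3
  apply h2
  apply Matrix.ext_iff_mulVec.2
  intro v
  have h5 : (((x : GL (Fin m ⊕ Fin m) F) : Matrix (Fin m ⊕ Fin m) (Fin m ⊕ Fin m) F) - 1).mulVecLin v ∈
      LinearMap.range (((x : GL (Fin m ⊕ Fin m) F) : Matrix (Fin m ⊕ Fin m) (Fin m ⊕ Fin m) F) - 1).mulVecLin := ⟨v, rfl⟩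
  rw [h4, Submodule.mem_bot, Matrix.mulVecLin_apply] at h5
  rw [h5]
  simp

end gen

end Cfsg.Agent.Lib.Inv2.CentOAlt
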