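import Mathlib
import Cfsg.Agent.Lib.Classical.HermTransv
import Cfsg.Agent.Lib.UnitT.Basic
import Cfsg.Prelude.Def_SporadicB
import Cfsg.Agent.Lib.Inv2.Group

/-!
# Unitary transvections of `SU(n,2)` form a class of 3-transpositions
-/

set_option autoImplicit false
set_option linter.unusedSectionVars false
set_option linter.unusedSimpArgs false

namespace Cfsg.Agent.Lib.Inv2.UnitaryThree

open Matrix Cfsg Module Cfsg.Agent.Lib.Classical.HermBasic Cfsg.Agent.Lib.Classical.HermBridge
  Cfsg.Agent.Lib.Classical.HermTransv Cfsg.Agent.Lib.HermCount.Field Cfsg.Agent.Lib.Witt.HermParabolic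
  Cfsg.Agent.Lib.UnitT.Basic

variable {F : Type*} [Field F] [Fintype F] {n : ℕ}

/-- The transvection attached to an isotropic vector. -/
noncomputable abbrev T (w : Fin n → F) : Matrix (Fin n) (Fin n) F := unitaryTransvection n 2 w 1

variable (hF : Fintype.card F = 2 ^ 2)
include hF

theorem two_eq : (2 : F) = 0 := by
  have h1 : ((Fintype.card F : ℕ) : F) = 0 := FiniteField.cast_card_eq_zero F
  rw [hF] at h1
  have h3 : (2 : F) * 2 = 0 := by
    push_cast at h1
    linear_combination h1
  exact mul_self_eq_zero.mp h3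

theorem cube {x : F} (hx : x ≠ 0) : x ^ 3 = 1 := by
  have := FiniteField.pow_card_sub_one_eq_one x hx
  rwa [hF] at this

omit hF in
theorem T_mulVec (w x : Fin n → F) : T w *ᵥ x = x + hermForm n F 2 x w • w := by
  rw [T, transv_mulVec, one_mul]

theorem add_self_eq (x : Fin n → F) : x + x = 0 := by
  rw [← two_smul F x, two_eq hF, zero_smul]

theorem T_mul_T {w : Fin n → F} (hw : hermForm n F 2 w w = 0) : T w * T w = 1 := by
  have S := hform hF n
  apply Matrix.ext_iff_mulVec.2
  intro x
  rw [← Matrix.mulVec_mulVec, T_mulVec, T_mulVec, S.add_left, S.smul_left, hw, mul_zero, add_zero,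
    Matrix.one_mulVec, add_assoc, add_self_eq hF, add_zero]

theorem T_smul {w : Fin n → F} {c : F} (hc : c ≠ 0) : T (c • w) = T w := by
  have S := hform hF n
  apply Matrix.ext_iff_mulVec.2
  intro x
  rw [T_mulVec, T_mulVec, S.smul_right, smul_smul]
  congr 2
  have := cube hF hc
  simp only [frobHom_apply]
  linear_combination (hermForm n F 2 x w) * this

theorem T_iso {w : Fin n → F} (hw : hermForm n F 2 w w = 0) (x y : Fin n → F) :
    hermForm n F 2 (T w *ᵥ x) (T w *ᵥ y) = hermForm n F 2 x y := by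
  have S := hform hF n
  rw [T_mulVec, T_mulVec]
  simp only [S.add_left, S.add_right, S.smul_left, S.smul_right, hw, mul_zero, add_zero]
  have h1 : frobHom hF (hermForm n F 2 y w) = hermForm n F 2 w y := S.conj' y w
  simp only [map_mul, h1]
  have h2 := two_eq hF
  linear_combination (hermForm n F 2 x w * hermForm n F 2 w y) * h2

/-- Conjugation. -/
theorem conj_T {w : Fin n → F} {G G' : Matrix (Fin n) (Fin n) F} (hGG : G * G' = 1)
    (hiso : ∀ x y, hermForm n F 2 (G *ᵥ x) (G *ᵥ y) = hermForm n F 2 x y) :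
    G * T w * G' = T (G *ᵥ w) := by
  apply Matrix.ext_iff_mulVec.2
  intro x
  have h1 : G *ᵥ (G' *ᵥ x) = x := by rw [Matrix.mulVec_mulVec, hGG, Matrix.one_mulVec]
  rw [← Matrix.mulVec_mulVec, ← Matrix.mulVec_mulVec, T_mulVec, T_mulVec, Matrix.mulVec_add, h1, Matrix.mulVec_smul,
    ← hiso (G' *ᵥ x) w, h1]

theorem det_T {w : Fin n → F} (hw : hermForm n F 2 w w = 0) : (T w).det = 1 := by
  rw [T, unitaryTransvection, one_smul, Matrix.vecMulVec_eq (ι := Unit), Matrix.det_one_add_replicateCol_mul_replicateRow]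
  rw [dotProduct_comm]
  have h1 : (w ⬝ᵥ fun j => w j ^ 2) = hermForm n F 2 w w := rfl
  rw [h1, hw, add_zero]

/-- The element of `SU`. -/
noncomputable def Tel {w : Fin n → F} (hw : hermForm n F 2 w w = 0) : ↥(SU n F 2) :=
  ⟨⟨T w, det_T hF hw⟩, fun x y => T_iso hF hw x y⟩

@[simp] theorem Tel_coe {w : Fin n → F} (hw : hermForm n F 2 w w = 0) :
    (((Tel hF hw : ↥(SU n F 2)) : SpecialLinearGroup (Fin n) F) : Matrix (Fin n) (Fin n) F) = T w := rfl

theorem rank_T {w : Fin n → F} (hw0 : w ≠ 0) : (T w - 1).rank = 1 := by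
  have S := hform hF n
  have hR : LinearMap.range (T w - 1).mulVecLin = Submodule.span F {w} := by
    apply le_antisymm
    · rintro _ ⟨x, rfl⟩
      rw [Matrix.mulVecLin_apply, Matrix.sub_mulVec, Matrix.one_mulVec, T_mulVec, add_sub_cancel_left]
      exact Submodule.smul_mem _ _ (Submodule.mem_span_singleton_self w)
    · rw [Submodule.span_singleton_le_iff_mem]
      obtain ⟨x, hx⟩ : ∃ x, hermForm n F 2 x w ≠ 0 := by
        by_contra hcon
        push Not at hcon
        exact hw0 (S.sep_right w hcon)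
      refine ⟨(hermForm n F 2 x w)⁻¹ • x, ?_⟩
      rw [Matrix.mulVecLin_apply, Matrix.sub_mulVec, Matrix.one_mulVec, T_mulVec, add_sub_cancel_left,
        S.smul_left, inv_mul_cancel₀ hx, one_smul]
  rw [Matrix.rank, hR]
  exact finrank_span_singleton hw0

/-- A rank one element of `SU` is a transvection. -/
theorem exists_T_of_rank (g : ↥(SU n F 2)) (hg : (((g : SpecialLinearGroup (Fin n) F) : Matrix (Fin n) (Fin n) F) - 1).rank = 1) :
    ∃ w : Fin n → F, w ≠ 0 ∧ hermForm n F 2 w w = 0 ∧
      ((g : SpecialLinearGroup (Fin n) F) : Matrix (Fin n) (Fin n) F) = T w := by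
  classical
  set M : Matrix (Fin n) (Fin n) F := ((g : SpecialLinearGroup (Fin n) F) : Matrix (Fin n) (Fin n) F) with hM
  have h1 : finrank F (LinearMap.range (M - 1).mulVecLin) = 1 := hg
  obtain ⟨⟨v, hv'⟩, hne, hspan⟩ := finrank_eq_one_iff'.mp h1
  have hv : v ≠ 0 := fun h => hne (Subtype.ext h)
  obtain ⟨ψ, hψ⟩ : ∃ ψ : (Fin n → F) →ₗ[F] F, ψ v = 1 := by
    obtain ⟨i, hi⟩ := Function.ne_iff.mp hv
    refine ⟨(v i)⁻¹ • LinearMap.proj i, ?_⟩
    have hi' : v i ≠ 0 := hi
    simp [inv_mul_cancel₀ hi']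
  have hc : ∀ x : Fin n → F, (M - 1) *ᵥ x = ψ ((M - 1) *ᵥ x) • v := by
    intro x
    obtain ⟨c, hc⟩ := hspan ⟨(M - 1) *ᵥ x, ⟨x, rfl⟩⟩
    have h2 := congrArg Subtype.val hc
    simp only [Submodule.coe_smul] at h2
    rw [← h2, map_smul, hψ, smul_eq_mul, mul_one]
  let φ : (Fin n → F) →ₗ[F] F := ψ ∘ₗ (M - 1).mulVecLin
  have hφ : ∀ x, (M - 1) *ᵥ x = φ x • v := hc
  have hdet : φ v = 0 := by
    have h2 : Matrix.toLin' M = LinearMap.id + φ.smulRight v := by
      ext1 i
      apply LinearMap.ext_ring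
      funext j
      have := hφ (Pi.single i 1)
      rw [Matrix.sub_mulVec, Matrix.one_mulVec] at this
      have h3 : M *ᵥ Pi.single i 1 = Pi.single i 1 + φ (Pi.single i 1) • v := by
        rw [← this]
        abel
      simp only [LinearMap.comp_apply, LinearMap.single_apply, Matrix.toLin'_apply, LinearMap.add_apply,
        LinearMap.id_apply, LinearMap.smulRight_apply]
      exact congrFun h3 j
    have h3 := det_oneT φ v
    rw [← h2, LinearMap.det_toLin'] at h3
    have h4 : M.det = 1 := (g : SpecialLinearGroup (Fin n) F).2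
    rw [h4] at h3
    linear_combination -h3
  have hsq : (M - 1) * (M - 1) = 0 := by
    apply Matrix.ext_iff_mulVec.2
    intro x
    rw [← Matrix.mulVec_mulVec, hφ x, Matrix.mulVec_smul, hφ v, hdet, zero_smul, smul_zero, Matrix.zero_mulVec]
  have htr : IsTransvection M := ⟨hg, hsq⟩
  have h2 := two_eq hF
  obtain ⟨w, hw0, hww, hwx⟩ := exists_normal hF (a₀ := (1 : F)) one_ne_zero (by
    simp only [map_one]
    linear_combination h2) M (fun x y => g.2 x y) htr
  refine ⟨w, hw0, hww, ?_⟩
  apply Matrix.ext_iff_mulVec.2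
  intro x
  rw [hwx, T_mulVec, one_mul]

/-- The 3-transposition calculation. -/
theorem T_T_pow {a b : Fin n → F} (ha : hermForm n F 2 a a = 0) (hb : hermForm n F 2 b b = 0) :
    (T a * T b) ^ 2 = 1 ∨ (T a * T b) ^ 3 = 1 := by
  have S := hform hF n
  have h2 := two_eq hF
  by_cases hc : hermForm n F 2 a b = 0
  · left
    have hba : hermForm n F 2 b a = 0 := S.zero_symm hc
    rw [pow_two]
    apply Matrix.ext_iff_mulVec.2
    intro x
    simp only [← Matrix.mulVec_mulVec, T_mulVec, Matrix.one_mulVec]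
    simp only [S.add_left, S.smul_left, ha, hb, hc, hba, mul_zero, add_zero, zero_add]
    have e : x + hermForm n F 2 x b • b + hermForm n F 2 x a • a + hermForm n F 2 x b • b + hermForm n F 2 x a • a =
        x + (hermForm n F 2 x b • b + hermForm n F 2 x b • b) + (hermForm n F 2 x a • a + hermForm n F 2 x a • a) := by
      abel
    rw [e, add_self_eq hF, add_self_eq hF, add_zero, add_zero]
  · right
    have h1 : T a * T b * T a = T (T a *ᵥ b) := conj_T hF (T_mul_T hF ha) (T_iso hF ha)
    have h3 : T b * T a * T b = T (T b *ᵥ a) := conj_T hF (T_mul_T hF hb) (T_iso hF hb)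
    -- the two vectors are proportional
    have hprop : T a *ᵥ b = (hermForm n F 2 b a) • (T b *ᵥ a) := by
      rw [T_mulVec, T_mulVec, smul_add, smul_smul]
      have hba : hermForm n F 2 b a = hermForm n F 2 a b ^ 2 := S.conj a b
      have hc3 := cube hF hc
      have e : hermForm n F 2 b a * hermForm n F 2 a b = 1 := by
        rw [hba]
        linear_combination hc3
      rw [e, one_smul, add_comm]
    have hba0 : hermForm n F 2 b a ≠ 0 := fun h => hc (S.zero_symm h)
    have e1 : T (T a *ᵥ b) = T (T b *ᵥ a) := by rw [hprop, T_smul hF hba0]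
    have hiso : hermForm n F 2 (T b *ᵥ a) (T b *ᵥ a) = 0 := by rw [T_iso hF hb, ha]
    calc (T a * T b) ^ 3 = (T a * T b * T a) * (T b * T a * T b) := by
          simp only [pow_succ, pow_zero, one_mul, Matrix.mul_assoc]
      _ = 1 := by rw [h1, h3, e1, T_mul_T hF hiso]

/-- The main theorem. -/
theorem threeClass (hn : 4 ≤ n) :
    IsThreeTranspositionClass {g : ↥(SU n F 2) |
      (((g : SpecialLinearGroup (Fin n) F) : Matrix (Fin n) (Fin n) F) - 1).rank = 1} := by
  classical
  have S := hform hF n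
  have h2 := two_eq hF
  have hcoe : ∀ {g g' : ↥(SU n F 2)},
      ((g : SpecialLinearGroup (Fin n) F) : Matrix (Fin n) (Fin n) F) =
        ((g' : SpecialLinearGroup (Fin n) F) : Matrix (Fin n) (Fin n) F) → g = g' :=
    fun h => Subtype.ext (Subtype.ext h)
  have hconjel : ∀ (σ g : ↥(SU n F 2)) {w : Fin n → F},
      ((g : SpecialLinearGroup (Fin n) F) : Matrix (Fin n) (Fin n) F) = T w →
      ((σ * g * σ⁻¹ : ↥(SU n F 2)) : SpecialLinearGroup (Fin n) F).1 =
        T (((σ : SpecialLinearGroup (Fin n) F) : Matrix (Fin n) (Fin n) F) *ᵥ w) := by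
    intro σ g w hg
    have h3 := conj_T hF (w := w) (G := ((σ : SpecialLinearGroup (Fin n) F) : Matrix (Fin n) (Fin n) F))
      (G' := (((σ⁻¹ : ↥(SU n F 2)) : SpecialLinearGroup (Fin n) F) : Matrix (Fin n) (Fin n) F))
      (by
        have := congrArg (fun x : ↥(SU n F 2) => ((x : SpecialLinearGroup (Fin n) F) : Matrix (Fin n) (Fin n) F))
          (mul_inv_cancel σ)
        exact this) (fun x y => σ.2 x y)
    rw [← h3, ← hg]
    rfl
  refine ⟨⟨?_, ?_⟩, ?_, ?_⟩
  · intro d hd
    obtain ⟨w, hw0, hww, hdw⟩ := exists_T_of_rank hF d hd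
    rw [Cfsg.Agent.Lib.Inv2.Group.orderOf_eq_two_iff]
    refine ⟨hcoe ?_, ?_⟩
    · show ((d : SpecialLinearGroup (Fin n) F) : Matrix (Fin n) (Fin n) F) * _ = 1
      rw [hdw, T_mul_T hF hww]
    · rintro rfl
      have h3 : (((1 : ↥(SU n F 2)) : SpecialLinearGroup (Fin n) F) : Matrix (Fin n) (Fin n) F) - 1 = 0 := by
        simp
      have h4 : ((((1 : ↥(SU n F 2)) : SpecialLinearGroup (Fin n) F) : Matrix (Fin n) (Fin n) F) - 1).rank = 1 := hd
      rw [h3, Matrix.rank_zero] at h4
      exact zero_ne_one h4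
  · intro d hd e he
    obtain ⟨a, -, ha, hda⟩ := exists_T_of_rank hF d hd
    obtain ⟨b, -, hb, heb⟩ := exists_T_of_rank hF e he
    rcases T_T_pow hF ha hb with h | h
    · left
      apply hcoe
      show (((d : SpecialLinearGroup (Fin n) F) : Matrix (Fin n) (Fin n) F) * ((e : SpecialLinearGroup (Fin n) F) : Matrix (Fin n) (Fin n) F)) ^ 2 = 1
      rw [hda, heb, h]
    · right
      apply hcoe
      show (((d : SpecialLinearGroup (Fin n) F) : Matrix (Fin n) (Fin n) F) * ((e : SpecialLinearGroup (Fin n) F) : Matrix (Fin n) (Fin n) F)) ^ 3 = 1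
      rw [hda, heb, h]
  · -- a single class
    let i0 : Fin n := ⟨0, by omega⟩
    let i1 : Fin n := ⟨1, by omega⟩
    have h01 : i0 ≠ i1 := by
      intro h
      simpa [i0, i1] using congrArg Fin.val h
    let w₀ : Fin n → F := Pi.single i0 1 + Pi.single i1 1
    have hw₀ : hermForm n F 2 w₀ w₀ = 0 := by
      simp only [w₀, S.add_left, S.add_right]
      have e1 : hermForm n F 2 (Pi.single i0 1) (Pi.single i0 1) = 1 := by
        simp [hermForm, Pi.single_apply]
      have e2 : hermForm n F 2 (Pi.single i1 1) (Pi.single i1 1) = 1 := by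
        simp [hermForm, Pi.single_apply]
      have e3 : hermForm n F 2 (Pi.single i0 1) (Pi.single i1 1) = 0 := by
        simp [hermForm, Pi.single_apply, h01, Ne.symm h01]
      have e4 : hermForm n F 2 (Pi.single i1 1) (Pi.single i0 1) = 0 := by
        simp [hermForm, Pi.single_apply, h01, Ne.symm h01]
      rw [e1, e2, e3, e4]
      linear_combination h2
    have hw₀0 : w₀ ≠ 0 := by
      intro h
      have := congrFun h i0
      simp [w₀, Pi.single_apply, Ne.symm h01] at this
    refine ⟨Tel hF hw₀, rank_T hF hw₀0, ?_⟩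
    ext g
    show _ = 1 ↔ IsConj _ _
    constructor
    · intro hg
      obtain ⟨w, hw0, hww, hgw⟩ := exists_T_of_rank hF g hg
      let mkTI : ∀ u : Fin n → F, u ≠ 0 → hermForm n F 2 u u = 0 → TI n 1 F 2 := fun u hu0 hu =>
        ⟨Submodule.span F {u}, finrank_span_singleton hu0, by
          intro x hx y hy
          obtain ⟨a, rfl⟩ := Submodule.mem_span_singleton.mp hx
          obtain ⟨b, rfl⟩ := Submodule.mem_span_singleton.mp hy
          rw [S.smul_left, S.smul_right, hu]
          simp⟩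
      obtain ⟨σ, hσ⟩ := exists_smul_eq hF (mkTI w₀ hw₀0 hw₀) (mkTI w hw0 hww)
      have hmem := ((smul_eq_iff σ _ _).mp hσ) w₀ (Submodule.mem_span_singleton_self w₀)
      obtain ⟨c, hc⟩ := Submodule.mem_span_singleton.mp hmem
      have hc0 : c ≠ 0 := by
        rintro rfl
        rw [zero_smul] at hc
        have h3 : ((σ : SpecialLinearGroup (Fin n) F) : Matrix (Fin n) (Fin n) F) *ᵥ w₀ = 0 := hc.symm
        apply hw₀0
        have h4 := congrArg (fun x => (((σ⁻¹ : ↥(SU n F 2)) : SpecialLinearGroup (Fin n) F) : Matrix (Fin n) (Fin n) F) *ᵥ x) h3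
        simp only [Matrix.mulVec_zero, Matrix.mulVec_mulVec] at h4
        have h5 : (((σ⁻¹ : ↥(SU n F 2)) : SpecialLinearGroup (Fin n) F) : Matrix (Fin n) (Fin n) F) *
            ((σ : SpecialLinearGroup (Fin n) F) : Matrix (Fin n) (Fin n) F) = 1 := by
          have := congrArg (fun x : ↥(SU n F 2) => ((x : SpecialLinearGroup (Fin n) F) : Matrix (Fin n) (Fin n) F))
            (inv_mul_cancel σ)
          exact this
        rwa [h5, Matrix.one_mulVec] at h4
      refine isConj_iff.mpr ⟨σ, hcoe ?_⟩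
      rw [hconjel σ (Tel hF hw₀) (Tel_coe hF hw₀), hgw]
      have h3 : ((σ : SpecialLinearGroup (Fin n) F) : Matrix (Fin n) (Fin n) F) *ᵥ w₀ = c • w := hc.symm
      rw [h3, T_smul hF hc0]
    · intro hc
      obtain ⟨σ, rfl⟩ := isConj_iff.mp hc
      rw [hconjel σ (Tel hF hw₀) (Tel_coe hF hw₀)]
      apply rank_T hF
      intro h0
      apply hw₀0
      have h4 := congrArg (fun x => (((σ⁻¹ : ↥(SU n F 2)) : SpecialLinearGroup (Fin n) F) : Matrix (Fin n) (Fin n) F) *ᵥ x) h0
      simp only [Matrix.mulVec_zero, Matrix.mulVec_mulVec] at h4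
      have h5 : (((σ⁻¹ : ↥(SU n F 2)) : SpecialLinearGroup (Fin n) F) : Matrix (Fin n) (Fin n) F) *
          ((σ : SpecialLinearGroup (Fin n) F) : Matrix (Fin n) (Fin n) F) = 1 := by
        have := congrArg (fun x : ↥(SU n F 2) => ((x : SpecialLinearGroup (Fin n) F) : Matrix (Fin n) (Fin n) F))
          (inv_mul_cancel σ)
        exact this
      rwa [h5, Matrix.one_mulVec] at h4
  · rw [eq_top_iff, ← closure_transv_SU hF n (by omega) (by omega), Subgroup.closure_le]
    rintro A ⟨v, c, hv, hA⟩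
    by_cases hv0 : v = 0
    · have : A = 1 := by
        apply hcoe
        rw [hA, hv0]
        simp [unitaryTransvection]
      rw [this]
      exact Subgroup.one_mem _
    have hiso : ∀ x y : Fin n → F, hermForm n F 2 (unitaryTransvection n 2 v c *ᵥ x)
        (unitaryTransvection n 2 v c *ᵥ y) = hermForm n F 2 x y := by
      intro x y
      rw [← hA]
      exact A.2 x y
    rcases (transv_isometry_iff hF n v hv0 hv c).mp hiso with rfl | hc1
    · have : A = 1 := by
        apply hcoe
        rw [hA]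
        simp [unitaryTransvection]
      rw [this]
      exact Subgroup.one_mem _
    · have hc : c = 1 := by
        have : c ^ 1 = -1 := hc1
        rw [pow_one] at this
        rw [this]
        linear_combination -h2
      subst hc
      apply Subgroup.subset_closure
      show (((A : SpecialLinearGroup (Fin n) F) : Matrix (Fin n) (Fin n) F) - 1).rank = 1
      rw [hA]
      exact rank_T hF hv0

end Cfsg.Agent.Lib.Inv2.UnitaryThree
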